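/-
Feit-Higman: the operator algebra of a generalised polygon. Two operators with the quadratic relations of the
Iwahori-Hecke algebra of a dihedral group; the two-sided ideal of the first idempotent; the three-term recurrence.
-/
import Mathlib

set_option autoImplicit false

namespace Cfsg.Agent.Lib.FH

open Matrix

variable {ι : Type*} [Fintype ι] [DecidableEq ι]

/-- The quadratic relations, in a corner with unit `E`. -/
structure HK (E T₁ T₂ : Matrix ι ι ℝ) (q r : ℝ) : Prop where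
  EE : E * E = E
  ET₁ : E * T₁ = T₁
  T₁E : T₁ * E = T₁
  ET₂ : E * T₂ = T₂
  T₂E : T₂ * E = T₂
  T₁T₁ : T₁ * T₁ = q • E + (q - 1) • T₁
  T₂T₂ : T₂ * T₂ = r • E + (r - 1) • T₂

/-- The alternating products. -/
def alt (E T₁ T₂ : Matrix ι ι ℝ) : ℕ → Matrix ι ι ℝ × Matrix ι ι ℝ
  | 0 => (E, E)
  | k + 1 => (T₁ * (alt E T₁ T₂ k).2, T₂ * (alt E T₁ T₂ k).1)

/-- The projection (up to a scalar) onto the fixed points of the first operator. -/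
def PP (E T₁ : Matrix ι ι ℝ) : Matrix ι ι ℝ := T₁ + E

/-- The words of odd length beginning and ending with the second operator. -/
def WW (T₁ T₂ : Matrix ι ι ℝ) : ℕ → Matrix ι ι ℝ
  | 0 => T₂
  | k + 1 => T₂ * (T₁ * WW T₁ T₂ k)

/-- The double-coset operators. -/
def DD (E T₁ T₂ : Matrix ι ι ℝ) : ℕ → Matrix ι ι ℝ
  | 0 => PP E T₁
  | k + 1 => PP E T₁ * WW T₁ T₂ k * PP E T₁

/-- The operator whose eigenvalues we study. -/
def MM (E T₁ T₂ : Matrix ι ι ℝ) : Matrix ι ι ℝ := PP E T₁ * T₂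

section

variable {E T₁ T₂ : Matrix ι ι ℝ} {q r : ℝ}

lemma alt_fst_succ (k : ℕ) : (alt E T₁ T₂ (k + 1)).1 = T₁ * (alt E T₁ T₂ k).2 := rfl
lemma alt_snd_succ (k : ℕ) : (alt E T₁ T₂ (k + 1)).2 = T₂ * (alt E T₁ T₂ k).1 := rfl

lemma HK.PP_sq (h : HK E T₁ T₂ q r) : PP E T₁ * PP E T₁ = (q + 1) • PP E T₁ := by
  unfold PP
  simp only [Matrix.mul_add, Matrix.add_mul, h.T₁T₁, h.T₁E, h.ET₁, h.EE]
  (module)
lemma HK.PP_T₁ (h : HK E T₁ T₂ q r) : PP E T₁ * T₁ = q • PP E T₁ := by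
  unfold PP
  simp only [Matrix.add_mul, h.T₁T₁, h.ET₁]
  (module)
lemma HK.T₁_PP (h : HK E T₁ T₂ q r) : T₁ * PP E T₁ = q • PP E T₁ := by
  unfold PP
  simp only [Matrix.mul_add, h.T₁T₁, h.T₁E]
  (module)
lemma HK.PP_E (h : HK E T₁ T₂ q r) : PP E T₁ * E = PP E T₁ := by
  unfold PP
  simp only [Matrix.add_mul, h.T₁E, h.EE]

lemma HK.E_PP (h : HK E T₁ T₂ q r) : E * PP E T₁ = PP E T₁ := by
  unfold PP
  simp only [Matrix.mul_add, h.ET₁, h.EE]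

lemma HK.E_WW (h : HK E T₁ T₂ q r) (k : ℕ) : E * WW T₁ T₂ k = WW T₁ T₂ k := by
  cases k with
  | zero => exact h.ET₂
  | succ k =>
    show E * (T₂ * (T₁ * WW T₁ T₂ k)) = T₂ * (T₁ * WW T₁ T₂ k)
    rw [← Matrix.mul_assoc, h.ET₂]

lemma HK.T₂_PP (h : HK E T₁ T₂ q r) : T₂ * PP E T₁ = T₂ * T₁ + T₂ := by
  unfold PP
  rw [Matrix.mul_add, h.T₂E]

lemma HK.M_D0 (_h : HK E T₁ T₂ q r) : MM E T₁ T₂ * DD E T₁ T₂ 0 = DD E T₁ T₂ 1 := rfl

lemma HK.M_D1 (h : HK E T₁ T₂ q r) :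
    MM E T₁ T₂ * DD E T₁ T₂ 1 = DD E T₁ T₂ 2 + (r * (q + 1)) • DD E T₁ T₂ 0 + (r - 1) • DD E T₁ T₂ 1 := by
  have key : T₂ * PP E T₁ * T₂ = WW T₁ T₂ 1 + r • E + (r - 1) • T₂ := by
    rw [h.T₂_PP, Matrix.add_mul, Matrix.mul_assoc, h.T₂T₂]
    show T₂ * (T₁ * T₂) + _ = T₂ * (T₁ * T₂) + _ + _
    rw [add_assoc]
  have e : MM E T₁ T₂ * DD E T₁ T₂ 1 = PP E T₁ * (T₂ * PP E T₁ * T₂) * PP E T₁ := by
    show PP E T₁ * T₂ * (PP E T₁ * T₂ * PP E T₁) = _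
    simp only [Matrix.mul_assoc]
  rw [e, key]
  simp only [Matrix.mul_add, Matrix.add_mul, Matrix.mul_smul, Matrix.smul_mul, h.PP_E, h.PP_sq]
  show PP E T₁ * (T₂ * (T₁ * T₂)) * PP E T₁ + _ + _ = PP E T₁ * (T₂ * (T₁ * T₂)) * PP E T₁ + _ + _
  congr 1
  · congr 1
    show r • (q + 1) • PP E T₁ = (r * (q + 1)) • PP E T₁
    rw [smul_smul]

lemma HK.M_Dk (h : HK E T₁ T₂ q r) (k : ℕ) :
    MM E T₁ T₂ * DD E T₁ T₂ (k + 2) = DD E T₁ T₂ (k + 3) + (r * q) • DD E T₁ T₂ (k + 1) + (r - 1) • DD E T₁ T₂ (k + 2) := by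
  have key : T₂ * PP E T₁ * WW T₁ T₂ (k + 1) = WW T₁ T₂ (k + 2) + r • (T₁ * WW T₁ T₂ k) + (r - 1) • WW T₁ T₂ (k + 1) := by
    rw [h.T₂_PP, Matrix.add_mul, Matrix.mul_assoc]
    show _ + T₂ * (T₂ * (T₁ * WW T₁ T₂ k)) = _
    rw [← Matrix.mul_assoc T₂ T₂, h.T₂T₂, Matrix.add_mul, Matrix.smul_mul, Matrix.smul_mul, ← Matrix.mul_assoc E,
      h.ET₁, add_assoc]
    rfl
  have e : MM E T₁ T₂ * DD E T₁ T₂ (k + 2) = PP E T₁ * (T₂ * PP E T₁ * WW T₁ T₂ (k + 1)) * PP E T₁ := by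
    show PP E T₁ * T₂ * (PP E T₁ * WW T₁ T₂ (k + 1) * PP E T₁) = _
    simp only [Matrix.mul_assoc]
  rw [e, key]
  simp only [Matrix.mul_add, Matrix.add_mul, Matrix.mul_smul, Matrix.smul_mul]
  have e2 : PP E T₁ * (T₁ * WW T₁ T₂ k) * PP E T₁ = q • (PP E T₁ * WW T₁ T₂ k * PP E T₁) := by
    rw [← Matrix.mul_assoc, h.PP_T₁, Matrix.smul_mul, Matrix.smul_mul]
  rw [e2, smul_smul]
  rfl

lemma HK.P_D (h : HK E T₁ T₂ q r) (k : ℕ) : PP E T₁ * DD E T₁ T₂ k = (q + 1) • DD E T₁ T₂ k := by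
  cases k with
  | zero => exact h.PP_sq
  | succ k =>
    show PP E T₁ * (PP E T₁ * WW T₁ T₂ k * PP E T₁) = (q + 1) • (PP E T₁ * WW T₁ T₂ k * PP E T₁)
    rw [← Matrix.mul_assoc, ← Matrix.mul_assoc, h.PP_sq, Matrix.smul_mul, Matrix.smul_mul]

/-- The alternating products in terms of `WW`. -/
lemma HK.WW_eq (h : HK E T₁ T₂ q r) (k : ℕ) : (alt E T₁ T₂ (2 * k + 1)).2 = WW T₁ T₂ k := by
  induction k with
  | zero =>
    show T₂ * E = T₂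
    exact h.T₂E
  | succ k ih =>
    show T₂ * (T₁ * (alt E T₁ T₂ (2 * k + 1)).2) = T₂ * (T₁ * WW T₁ T₂ k)
    rw [ih]

lemma HK.a_even (h : HK E T₁ T₂ q r) (k : ℕ) : (alt E T₁ T₂ (2 * k + 2)).1 = T₁ * WW T₁ T₂ k := by
  show T₁ * (alt E T₁ T₂ (2 * k + 1)).2 = _
  rw [h.WW_eq]

lemma HK.b_even (h : HK E T₁ T₂ q r) (k : ℕ) : (alt E T₁ T₂ (2 * k + 2)).2 = WW T₁ T₂ k * T₁ := by
  induction k with
  | zero =>
    show T₂ * (T₁ * E) = T₂ * T₁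
    rw [h.T₁E]
  | succ k ih =>
    show T₂ * (T₁ * (alt E T₁ T₂ (2 * k + 2)).2) = T₂ * (T₁ * WW T₁ T₂ k) * T₁
    rw [ih]
    simp only [Matrix.mul_assoc]

lemma HK.a_odd (h : HK E T₁ T₂ q r) (k : ℕ) : (alt E T₁ T₂ (2 * k + 3)).1 = T₁ * (WW T₁ T₂ k * T₁) := by
  show T₁ * (alt E T₁ T₂ (2 * k + 2)).2 = _
  rw [h.b_even]

lemma HK.E_WW_T₁ (h : HK E T₁ T₂ q r) (k : ℕ) : E * (T₁ * (WW T₁ T₂ k * T₁)) = T₁ * (WW T₁ T₂ k * T₁) := by
  rw [← Matrix.mul_assoc, h.ET₁]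

/-- The top relation, even case. -/
lemma HK.top_even (h : HK E T₁ T₂ q r) (d : ℕ) (hbr : (alt E T₁ T₂ (2 * d + 4)).1 = (alt E T₁ T₂ (2 * d + 4)).2) :
    DD E T₁ T₂ (d + 3) = (r * q * q) • DD E T₁ T₂ (d + 1) + ((r - 1) * q) • DD E T₁ T₂ (d + 2) := by
  have e1 : WW T₁ T₂ (d + 2) = T₂ * (alt E T₁ T₂ (2 * d + 4)).1 := by
    show T₂ * (T₁ * WW T₁ T₂ (d + 1)) = _
    have := h.a_even (d + 1)
    rw [show 2 * (d + 1) + 2 = 2 * d + 4 by ring] at this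
    rw [this]
  have e2 : (alt E T₁ T₂ (2 * d + 4)).2 = T₂ * (alt E T₁ T₂ (2 * d + 3)).1 := rfl
  have e3 : WW T₁ T₂ (d + 2) = r • (T₁ * (WW T₁ T₂ d * T₁)) + (r - 1) • (T₁ * WW T₁ T₂ (d + 1)) := by
    have h4 : T₂ * (alt E T₁ T₂ (2 * d + 3)).1 = T₁ * WW T₁ T₂ (d + 1) := by
      rw [← e2, ← hbr]
      have := h.a_even (d + 1)
      rwa [show 2 * (d + 1) + 2 = 2 * d + 4 by ring] at this
    rw [e1, hbr, e2, ← Matrix.mul_assoc, h.T₂T₂, Matrix.add_mul, Matrix.smul_mul, Matrix.smul_mul, h4, h.a_odd,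
      h.E_WW_T₁]
  show PP E T₁ * WW T₁ T₂ (d + 2) * PP E T₁ = (r * q * q) • (PP E T₁ * WW T₁ T₂ d * PP E T₁)
    + ((r - 1) * q) • (PP E T₁ * WW T₁ T₂ (d + 1) * PP E T₁)
  rw [e3]
  simp only [Matrix.mul_add, Matrix.add_mul, Matrix.mul_smul, Matrix.smul_mul]
  have e5 : PP E T₁ * (T₁ * (WW T₁ T₂ d * T₁)) * PP E T₁ = (q * q) • (PP E T₁ * WW T₁ T₂ d * PP E T₁) := by
    rw [← Matrix.mul_assoc, h.PP_T₁, Matrix.smul_mul, Matrix.smul_mul, Matrix.mul_assoc, Matrix.mul_assoc,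
      Matrix.mul_assoc, h.T₁_PP]
    simp only [Matrix.mul_smul, smul_smul, Matrix.mul_assoc]
  have e6 : PP E T₁ * (T₁ * WW T₁ T₂ (d + 1)) * PP E T₁ = q • (PP E T₁ * WW T₁ T₂ (d + 1) * PP E T₁) := by
    rw [← Matrix.mul_assoc, h.PP_T₁, Matrix.smul_mul, Matrix.smul_mul]
  rw [e5, e6]
  (module)
/-- The top relation, odd case. -/
lemma HK.top_odd (h : HK E T₁ T₂ q r) (d : ℕ) (hbr : (alt E T₁ T₂ (2 * d + 3)).1 = (alt E T₁ T₂ (2 * d + 3)).2) :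
    DD E T₁ T₂ (d + 2) = (q * q) • DD E T₁ T₂ (d + 1) := by
  have e1 : WW T₁ T₂ (d + 1) = T₁ * (WW T₁ T₂ d * T₁) := by
    have := h.WW_eq (d + 1)
    rw [show 2 * (d + 1) + 1 = 2 * d + 3 by ring] at this
    rw [← this, ← hbr, h.a_odd]
  show PP E T₁ * WW T₁ T₂ (d + 1) * PP E T₁ = (q * q) • (PP E T₁ * WW T₁ T₂ d * PP E T₁)
  rw [e1, ← Matrix.mul_assoc, h.PP_T₁, Matrix.smul_mul, Matrix.smul_mul, Matrix.mul_assoc, Matrix.mul_assoc,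
    Matrix.mul_assoc, h.T₁_PP]
  simp only [Matrix.mul_smul, smul_smul, Matrix.mul_assoc]

/-- The traces of the double-coset operators. -/
lemma HK.trace_D0 (_h : HK E T₁ T₂ q r) : (DD E T₁ T₂ 0).trace = T₁.trace + E.trace := by
  show (T₁ + E).trace = _
  rw [Matrix.trace_add]

lemma HK.trace_Dk (h : HK E T₁ T₂ q r) (k : ℕ) :
    (DD E T₁ T₂ (k + 1)).trace = (q + 1) * ((alt E T₁ T₂ (2 * k + 2)).1.trace + (alt E T₁ T₂ (2 * k + 1)).2.trace) := by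
  show (PP E T₁ * WW T₁ T₂ k * PP E T₁).trace = _
  rw [Matrix.trace_mul_comm, ← Matrix.mul_assoc, h.PP_sq, Matrix.smul_mul, Matrix.trace_smul, smul_eq_mul, h.a_even, h.WW_eq]
  congr 1
  unfold PP
  rw [Matrix.add_mul, Matrix.trace_add, h.E_WW]

/-- The action of `M` on a partial sum. -/
lemma HK.M_sum (h : HK E T₁ T₂ q r) (β : ℕ → ℝ) (μ : ℝ) (hβ0 : μ * β 0 = r * (q + 1) * β 1)
    (hβ : ∀ k, μ * β (k + 1) = β k + (r - 1) * β (k + 1) + r * q * β (k + 2)) (m : ℕ) :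
    MM E T₁ T₂ * ∑ k ∈ Finset.range (m + 2), β k • DD E T₁ T₂ k =
      μ • (∑ k ∈ Finset.range (m + 2), β k • DD E T₁ T₂ k) + β (m + 1) • DD E T₁ T₂ (m + 2)
        - (r * q * β (m + 2)) • DD E T₁ T₂ (m + 1) := by
  induction m with
  | zero =>
    simp only [Finset.sum_range_succ, Finset.sum_range_zero, zero_add, Matrix.mul_add, Matrix.mul_smul]
    rw [h.M_D0, h.M_D1]
    have h1 := hβ 0
    simp only [zero_add] at h1
    linear_combination (norm := module) (-(1 : ℝ)) • (hβ0 • DD E T₁ T₂ 0) - h1 • DD E T₁ T₂ 1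
  | succ m ih =>
    rw [Finset.sum_range_succ, Matrix.mul_add, ih, Matrix.mul_smul, h.M_Dk]
    have h1 := hβ (m + 1)
    linear_combination (norm := module) (-(1 : ℝ)) • (h1 • DD E T₁ T₂ (m + 2))

/-- The action of the double-coset operators on an eigenvector of `M`. -/
lemma HK.D_mul_eigen (h : HK E T₁ T₂ q r) {X : Matrix ι ι ℝ} {μ : ℝ} (hM : MM E T₁ T₂ * X = μ • X)
    (hP : PP E T₁ * X = (q + 1) • X) (π : ℕ → ℝ) (h0 : π 0 = 1) (h1 : π 1 = μ)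
    (h2 : π 2 = (μ - r + 1) * μ - r * (q + 1))
    (h3 : ∀ k, π (k + 3) = (μ - r + 1) * π (k + 2) - r * q * π (k + 1)) (k : ℕ) :
    DD E T₁ T₂ k * X = ((q + 1) * π k) • X := by
  have h10 : DD E T₁ T₂ 0 * X = ((q + 1) * π 0) • X := by
    rw [h0, mul_one]
    exact hP
  have h11 : DD E T₁ T₂ 1 * X = ((q + 1) * π 1) • X := by
    rw [← h.M_D0, Matrix.mul_assoc, h10, Matrix.mul_smul, hM, h1, h0, smul_smul]
    congr 1
    ring
  have hs : ∀ k, DD E T₁ T₂ (k + 1) * X = ((q + 1) * π (k + 1)) • X ∧ DD E T₁ T₂ (k + 2) * X = ((q + 1) * π (k + 2)) • X := by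
    intro k
    induction k with
    | zero =>
      refine ⟨h11, ?_⟩
      have e : DD E T₁ T₂ 2 = MM E T₁ T₂ * DD E T₁ T₂ 1 - (r * (q + 1)) • DD E T₁ T₂ 0 - (r - 1) • DD E T₁ T₂ 1 := by
        rw [h.M_D1]
        abel
      rw [e, Matrix.sub_mul, Matrix.sub_mul, Matrix.smul_mul, Matrix.smul_mul, Matrix.mul_assoc, h11, h10,
        Matrix.mul_smul, hM, h2, h1, h0]
      (module)
    | succ k ih =>
      refine ⟨ih.2, ?_⟩
      have e : DD E T₁ T₂ (k + 3) = MM E T₁ T₂ * DD E T₁ T₂ (k + 2) - (r * q) • DD E T₁ T₂ (k + 1) - (r - 1) • DD E T₁ T₂ (k + 2) := by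
        rw [h.M_Dk]
        abel
      show DD E T₁ T₂ (k + 3) * X = ((q + 1) * π (k + 3)) • X
      rw [e, Matrix.sub_mul, Matrix.sub_mul, Matrix.smul_mul, Matrix.smul_mul, Matrix.mul_assoc, ih.1, ih.2,
        Matrix.mul_smul, hM, h3]
      (module)
  cases k with
  | zero => exact h10
  | succ k => exact (hs k).1

end

/-- A non-zero multiple of an idempotent with non-zero trace: the scalar is the trace divided by a positive integer. -/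
lemma exists_nat_of_sq {X : Matrix ι ι ℝ} {S N : ℝ} (hXX : X * X = S • X) (htr : X.trace = N) (hN : N ≠ 0) :
    ∃ m : ℕ, m ≠ 0 ∧ N = m * S := by
  have hS : S ≠ 0 := by
    rintro rfl
    rw [zero_smul] at hXX
    have h1 : IsNilpotent X := ⟨2, by rw [pow_two, hXX]⟩
    have h2 := Matrix.isNilpotent_trace_of_isNilpotent h1
    rw [htr] at h2
    exact hN (h2.eq_zero)
  set Y : Matrix ι ι ℝ := S⁻¹ • X with hY
  have hYY : Y * Y = Y := by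
    rw [hY, Matrix.smul_mul, Matrix.mul_smul, hXX, smul_smul, smul_smul]
    congr 1
    field_simp
  have hfin : ∃ m : ℕ, Y.trace = m := by
    have hid : IsIdempotentElem (Matrix.toLin' Y) := by
      show Matrix.toLin' Y * Matrix.toLin' Y = Matrix.toLin' Y
      rw [Module.End.mul_eq_comp, ← Matrix.toLin'_mul, hYY]
    refine ⟨Module.finrank ℝ (LinearMap.range (Matrix.toLin' Y)), ?_⟩
    rw [← LinearMap.IsProj.trace (LinearMap.IsIdempotentElem.isProj_range _ hid), Matrix.trace_toLin'_eq]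
  obtain ⟨m, hm⟩ := hfin
  have h3 : Y.trace = S⁻¹ * N := by
    rw [hY, Matrix.trace_smul, htr, smul_eq_mul]
  refine ⟨m, ?_, ?_⟩
  · rintro rfl
    rw [h3] at hm
    simp at hm
    tauto
  · rw [← hm, h3]
    field_simp

end Cfsg.Agent.Lib.FH
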