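/-
Feit-Higman: the trigonometric sums behind the multiplicities.
-/
import Mathlib

set_option autoImplicit false

namespace Cfsg.Agent.Lib.FH

open Real

/-- The eigenvector coefficients. -/
noncomputable def vv (θ b : ℝ) (k : ℕ) : ℝ := (sin ((k + 1) * θ) + b * sin (k * θ)) / sin θ

lemma sin_add_add_sub (x θ : ℝ) : sin (x + θ) + sin (x - θ) = 2 * cos θ * sin x := by
  rw [sin_add, sin_sub]; ring

lemma sin_add_sub_sub (x θ : ℝ) : sin (x + θ) - sin (x - θ) = 2 * cos x * sin θ := by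
  rw [sin_add, sin_sub]; ring

lemma vv_zero {θ : ℝ} (b : ℝ) (hs : sin θ ≠ 0) : vv θ b 0 = 1 := by
  unfold vv
  simp only [Nat.cast_zero, zero_add, one_mul, zero_mul, sin_zero, mul_zero, add_zero]
  exact div_self hs

lemma vv_one {θ : ℝ} (b : ℝ) (hs : sin θ ≠ 0) : vv θ b 1 = 2 * cos θ + b := by
  unfold vv
  have : ((1 : ℕ) + 1 : ℝ) * θ = 2 * θ := by push_cast; ring
  rw [this, sin_two_mul]
  simp only [Nat.cast_one, one_mul]
  field_simp

lemma vv_rec (θ b : ℝ) (k : ℕ) : vv θ b (k + 2) = 2 * cos θ * vv θ b (k + 1) - vv θ b k := by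
  unfold vv
  have e1 : ((k + 2 : ℕ) + 1 : ℝ) * θ = (k + 2) * θ + θ := by push_cast; ring
  have e2 : ((k + 2 : ℕ) : ℝ) * θ = (k + 1) * θ + θ := by push_cast; ring
  have e3 : ((k + 1 : ℕ) + 1 : ℝ) * θ = (k + 1) * θ + θ := by push_cast; ring
  have e4 : ((k + 1 : ℕ) : ℝ) * θ = (k + 1) * θ := by push_cast; ring
  have h1 := sin_add_add_sub ((k + 1) * θ + θ) θ
  have h2 := sin_add_add_sub ((k + 1) * θ) θ
  have e5 : (k + 1 : ℝ) * θ + θ - θ = (k + 1) * θ := by ring
  have e6 : (k + 1 : ℝ) * θ - θ = k * θ := by ring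
  have e7 : (k + 1 : ℝ) * θ + θ + θ = (k + 2) * θ + θ := by ring
  rw [e5, e7] at h1
  rw [e6] at h2
  rw [e1, e2, e3, e4]
  have : sin ((k + 2) * θ + θ) = 2 * cos θ * sin ((k + 1) * θ + θ) - sin ((k + 1) * θ) := by linarith
  have h3 : sin ((k + 1) * θ + θ) = 2 * cos θ * sin ((k + 1) * θ) - sin (k * θ) := by linarith
  rw [this]
  have e8 : (k + 2 : ℝ) * θ = (k + 1) * θ + θ := by ring
  rw [h3]
  ring

/-- The sum of the squares, in closed form. -/
lemma sum_sq (θ b : ℝ) (m : ℕ) :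
    4 * sin θ * ∑ k ∈ Finset.range m, (sin ((k + 1) * θ) + b * sin (k * θ)) ^ 2 =
      2 * m * sin θ * (1 + 2 * b * cos θ + b ^ 2) - (sin (2 * m * θ + θ) - sin θ) - 2 * b * sin (2 * m * θ)
        - b ^ 2 * (sin (2 * m * θ - θ) + sin θ) := by
  induction m with
  | zero =>
    simp only [Finset.range_zero, Finset.sum_empty, mul_zero, Nat.cast_zero, zero_mul, zero_add, sin_zero, zero_sub, sin_neg]
    ring
  | succ m ih =>
    rw [Finset.sum_range_succ, mul_add, ih]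
    push_cast
    set x : ℝ := m * θ with hx
    have e1 : 2 * ((m : ℝ) + 1) * θ + θ = 2 * x + 2 * θ + θ := by rw [hx]; ring
    have e2 : 2 * ((m : ℝ) + 1) * θ = 2 * x + 2 * θ := by rw [hx]; ring
    have e3 : 2 * x + 2 * θ - θ = 2 * x + θ := by ring
    have e4 : 2 * (m : ℝ) * θ + θ = 2 * x + θ := by rw [hx]; ring
    have e5 : 2 * (m : ℝ) * θ = 2 * x := by rw [hx]; ring
    have e6 : 2 * (m : ℝ) * θ - θ = 2 * x - θ := by rw [hx]; ring
    have e7 : ((m : ℝ) + 1) * θ = x + θ := by rw [hx]; ring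
    rw [e1, e2, e3, e4, e5, e7]
    have t1 := sin_add_sub_sub (2 * x + 2 * θ) θ
    have t2 : sin (2 * x + 2 * θ) - sin (2 * x) = 2 * cos (2 * x + θ) * sin θ := by
      have := sin_add_sub_sub (2 * x + θ) θ
      rw [show 2 * x + θ + θ = 2 * x + 2 * θ by ring, show 2 * x + θ - θ = 2 * x by ring] at this
      exact this
    have t3 := sin_add_sub_sub (2 * x) θ
    have t4 : sin (x + θ) ^ 2 * 2 = 1 - cos (2 * x + 2 * θ) := by
      have := cos_two_mul (x + θ)
      rw [show 2 * (x + θ) = 2 * x + 2 * θ by ring] at this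
      nlinarith [sin_sq_add_cos_sq (x + θ)]
    have t5 : sin x ^ 2 * 2 = 1 - cos (2 * x) := by
      have := cos_two_mul x
      nlinarith [sin_sq_add_cos_sq x]
    have t6 : 2 * sin (x + θ) * sin x = cos θ - cos (2 * x + θ) := by
      rw [show 2 * x + θ = x + (x + θ) by ring, cos_add x (x + θ), show cos θ = cos ((x + θ) - x) by ring_nf]
      rw [cos_sub]
      ring
    have t1' : sin (2 * x + 2 * θ + θ) = sin (2 * x + θ) + 2 * cos (2 * x + 2 * θ) * sin θ := by
      rw [show 2 * x + 2 * θ - θ = 2 * x + θ by ring] at t1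
      linarith
    rw [t1']
    have t2' : sin (2 * x + 2 * θ) = sin (2 * x) + 2 * cos (2 * x + θ) * sin θ := by linarith
    have t3' : sin (2 * x + θ) = sin (2 * x - θ) + 2 * cos (2 * x) * sin θ := by linarith
    rw [t2']
    have k1 : (sin (x + θ) + b * sin x) ^ 2 = sin (x + θ) ^ 2 + b * (2 * sin (x + θ) * sin x) + b ^ 2 * sin x ^ 2 := by ring
    rw [k1, t6]
    have k2 : sin (x + θ) ^ 2 = (1 - cos (2 * x + 2 * θ)) / 2 := by linarith
    have k3 : sin x ^ 2 = (1 - cos (2 * x)) / 2 := by linarith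
    rw [k2, k3, t3']
    ring

/-- The sum over a period. -/
lemma sum_sq_even {θ : ℝ} (b : ℝ) (hs : sin θ ≠ 0) {d : ℕ} (hd : sin (d * θ) = 0) :
    ∑ k ∈ Finset.range d, (sin ((k + 1) * θ) + b * sin (k * θ)) ^ 2 = (d / 2) * (1 + 2 * b * cos θ + b ^ 2) := by
  have h := sum_sq θ b d
  have h1 : sin (2 * d * θ) = 0 := by
    rw [show 2 * (d : ℝ) * θ = 2 * (d * θ) by ring, sin_two_mul, hd]; ring
  have h2 : cos (2 * d * θ) = 1 := by
    rw [show 2 * (d : ℝ) * θ = 2 * (d * θ) by ring, cos_two_mul]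
    have := sin_sq_add_cos_sq (d * θ)
    rw [hd] at this
    nlinarith
  rw [sin_add, sin_sub, h1, h2] at h
  have h3 : 4 * sin θ * (∑ k ∈ Finset.range d, (sin ((k + 1) * θ) + b * sin (k * θ)) ^ 2) =
      4 * sin θ * ((d / 2) * (1 + 2 * b * cos θ + b ^ 2)) := by
    rw [h]
    ring
  exact mul_left_cancel₀ (mul_ne_zero (by norm_num) hs) h3

end Cfsg.Agent.Lib.FH
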