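/-
Feit-Higman: the eigenvector of the three-term recurrence attached to an angle, and the multiplicity.
-/
import Cfsg.Agent.Lib.FH.Core
import Cfsg.Agent.Lib.FH.Trig

set_option autoImplicit false

namespace Cfsg.Agent.Lib.FH

open Real Matrix

/-- The data of an angle. -/
structure Par (q r y θ b μ : ℝ) : Prop where
  hq : 1 < q
  hr : 1 < r
  hy : 0 < y
  hyy : y * y = q * r
  hs : sin θ ≠ 0
  hb : b * (r * (q + 1)) = y * (r - 1) - r * (2 * cos θ)
  hμ : μ = r - 1 + y * (2 * cos θ)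

/-- The coefficients of the eigenvector. -/
noncomputable def bet (y θ b : ℝ) (k : ℕ) : ℝ := vv θ b k / y ^ k

/-- The eigenvalues of the double-coset operators. -/
noncomputable def pii (q y θ b : ℝ) : ℕ → ℝ
  | 0 => 1
  | k + 1 => (q + 1) / q * y ^ (k + 1) * vv θ b (k + 1)

namespace Par

variable {q r y θ b μ : ℝ}

lemma q_pos (h : Par q r y θ b μ) : 0 < q := by linarith [h.hq]
lemma r_pos (h : Par q r y θ b μ) : 0 < r := by linarith [h.hr]

lemma key1 (h : Par q r y θ b μ) : r * (q + 1) * (2 * cos θ + b) = y * μ := by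
  rw [h.hμ]
  linear_combination h.hb - (2 * cos θ) * h.hyy

lemma h0 (h : Par q r y θ b μ) : μ * bet y θ b 0 = r * (q + 1) * bet y θ b 1 := by
  have hy := h.hy.ne'
  unfold bet
  rw [vv_zero b h.hs, vv_one b h.hs, pow_zero, pow_one, div_one, mul_one, mul_div_assoc', h.key1]
  field_simp

lemma h1 (h : Par q r y θ b μ) (k : ℕ) :
    μ * bet y θ b (k + 1) = bet y θ b k + (r - 1) * bet y θ b (k + 1) + r * q * bet y θ b (k + 2) := by
  have hy := h.hy.ne'
  unfold bet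
  rw [vv_rec]
  have e : r * q = y * y := by rw [h.hyy]; ring
  rw [e, h.hμ, pow_succ y (k + 1), pow_succ y k]
  have hp : y ^ k ≠ 0 := pow_ne_zero _ hy
  field_simp
  ring

lemma pi0 (_h : Par q r y θ b μ) : pii q y θ b 0 = 1 := rfl

lemma pi1 (h : Par q r y θ b μ) : pii q y θ b 1 = μ := by
  have hq := h.q_pos.ne'
  have hr := h.r_pos.ne'
  show (q + 1) / q * y ^ (0 + 1) * vv θ b (0 + 1) = μ
  rw [zero_add, pow_one, vv_one b h.hs]
  have h2 := h.key1
  have h3 : r * ((q + 1) * y * (2 * cos θ + b)) = r * (q * μ) := by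
    linear_combination y * h2 + μ * h.hyy
  have h4 := mul_left_cancel₀ hr h3
  field_simp
  linear_combination h4

lemma key2 (h : Par q r y θ b μ) : (q + 1) / q * (y * y) = (q + 1) * r := by
  have hq := h.q_pos.ne'
  rw [h.hyy]
  field_simp

lemma pi2 (h : Par q r y θ b μ) : pii q y θ b 2 = (μ - r + 1) * μ - r * (q + 1) := by
  show (q + 1) / q * y ^ 2 * vv θ b 2 = _
  have e : vv θ b 2 = 2 * cos θ * (2 * cos θ + b) - 1 := by
    have := vv_rec θ b 0
    rw [zero_add, vv_zero b h.hs, vv_one b h.hs] at this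
    exact this
  rw [e, pow_two, h.key2]
  have e2 : μ - r + 1 = y * (2 * cos θ) := by rw [h.hμ]; ring
  rw [e2]
  have h2 := h.key1
  linear_combination (2 * cos θ) * h2

lemma pi3 (h : Par q r y θ b μ) (k : ℕ) :
    pii q y θ b (k + 3) = (μ - r + 1) * pii q y θ b (k + 2) - r * q * pii q y θ b (k + 1) := by
  show (q + 1) / q * y ^ (k + 2 + 1) * vv θ b (k + 2 + 1) =
    _ * ((q + 1) / q * y ^ (k + 1 + 1) * vv θ b (k + 1 + 1)) - _ * ((q + 1) / q * y ^ (k + 1) * vv θ b (k + 1))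
  have e2 : μ - r + 1 = y * (2 * cos θ) := by rw [h.hμ]; ring
  have e : r * q = y * y := by rw [h.hyy]; ring
  rw [e2, e, vv_rec θ b (k + 1)]
  ring

lemma bet_pi (h : Par q r y θ b μ) (k : ℕ) :
    bet y θ b (k + 1) * pii q y θ b (k + 1) = (q + 1) / q * vv θ b (k + 1) ^ 2 := by
  have hy := h.hy.ne'
  show vv θ b (k + 1) / y ^ (k + 1) * ((q + 1) / q * y ^ (k + 1) * vv θ b (k + 1)) = _
  have hp : y ^ (k + 1) ≠ 0 := pow_ne_zero _ hy
  field_simp

/-- The sum of the squares of the coefficients. -/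
lemma sum_vv (h : Par q r y θ b μ) (m : ℕ) :
    ∑ k ∈ Finset.range m, vv θ b k ^ 2 =
      (∑ k ∈ Finset.range m, (sin ((k + 1) * θ) + b * sin (k * θ)) ^ 2) / sin θ ^ 2 := by
  rw [Finset.sum_div]
  apply Finset.sum_congr rfl
  intro k _
  unfold vv
  rw [div_pow]

lemma sum_bet_pi (h : Par q r y θ b μ) (m : ℕ) :
    ∑ k ∈ Finset.range (m + 1), bet y θ b k * pii q y θ b k =
      1 + (q + 1) / q * (∑ k ∈ Finset.range (m + 1), vv θ b k ^ 2 - 1) := by
  rw [Finset.sum_range_succ', Finset.sum_range_succ' (fun k => vv θ b k ^ 2)]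
  simp only [h.bet_pi, ← Finset.mul_sum]
  rw [vv_zero b h.hs, h.pi0]
  unfold bet
  rw [vv_zero b h.hs]
  simp
  ring

end Par

variable {ι : Type*} [Fintype ι] [DecidableEq ι] {E T₁ T₂ : Matrix ι ι ℝ} {q r : ℝ}

/-- The identity behind the multiplicity. -/
lemma key_Q {y w b : ℝ} (hr : r ≠ 0) (hyy : y * y = q * r) (hb : b * (r * (q + 1)) = y * (r - 1) - r * w) :
    (q + 1) ^ 2 * r * (1 + w * b + b ^ 2) = (q + r) * (q * r + 1) + (q - 1) * (r - 1) * y * w - y * y * w ^ 2 := by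
  apply mul_left_cancel₀ hr
  linear_combination (r * (q + 1) * w + b * (r * (q + 1)) + (y * (r - 1) - r * w)) * hb + (r * w ^ 2 + (r - 1) ^ 2 - r * w ^ 2) * hyy + (r * w ^ 2) * hyy - r * (r * w ^ 2 ) * 0

/-- The multiplicity formula when the number of letters is even. -/
theorem spec_even (h : HK E T₁ T₂ q r) (hq : 1 < q) (hr : 1 < r) (d : ℕ)
    (hbr : (alt E T₁ T₂ (2 * d + 4)).1 = (alt E T₁ T₂ (2 * d + 4)).2)
    (hta : ∀ k, k ≤ d + 1 → (alt E T₁ T₂ (2 * k + 2)).1.trace = 0)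
    (htb : ∀ k, k ≤ d + 1 → (alt E T₁ T₂ (2 * k + 1)).2.trace = 0)
    (ht1 : T₁.trace = 0) (hN : E.trace ≠ 0) {θ y : ℝ} (hy : 0 < y) (hyy : y * y = q * r) (hs : sin θ ≠ 0)
    (hd : sin (((d + 2 : ℕ) : ℝ) * θ) = 0) :
    ∃ m : ℕ, m ≠ 0 ∧ E.trace * (y * y * (4 - (2 * cos θ) ^ 2)) =
      m * (2 * (d + 2)) * ((q + r) * (q * r + 1) + (q - 1) * (r - 1) * y * (2 * cos θ) - y * y * (2 * cos θ) ^ 2) := by
  have hq0 : 0 < q := by linarith
  have hr0 : 0 < r := by linarith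
  set w : ℝ := 2 * cos θ with hw
  set b : ℝ := (y * (r - 1) - r * w) / (r * (q + 1)) with hb
  set μ : ℝ := r - 1 + y * w with hμ
  have hP : Par q r y θ b μ := by
    refine ⟨hq, hr, hy, hyy, hs, ?_, hμ⟩
    rw [hb]
    field_simp
    rw [hw]
    ring
  set β := bet y θ b with hβ
  set X : Matrix ι ι ℝ := ∑ k ∈ Finset.range (d + 2), β k • DD E T₁ T₂ k + (β (d + 2) / (q + 1)) • DD E T₁ T₂ (d + 2) with hX
  -- the top of the sequence
  have hv1 : sin ((d + 1 : ℕ) * θ) = - cos ((d + 2 : ℕ) * θ) * sin θ := by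
    have e : ((d + 1 : ℕ) : ℝ) * θ = ((d + 2 : ℕ) : ℝ) * θ - θ := by push_cast; ring
    rw [e, sin_sub, hd]
    ring
  have hv2 : sin (((d + 2 : ℕ) + 1 : ℝ) * θ) = cos ((d + 2 : ℕ) * θ) * sin θ := by
    have e : (((d + 2 : ℕ) : ℝ) + 1) * θ = ((d + 2 : ℕ) : ℝ) * θ + θ := by ring
    rw [e, sin_add, hd]
    ring
  set σ := cos ((d + 2 : ℕ) * θ) with hσ
  have hσ2 : σ ^ 2 = 1 := by
    have := sin_sq_add_cos_sq (((d + 2 : ℕ) : ℝ) * θ)
    rw [hd] at this
    nlinarith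
  have hvd : vv θ b (d + 2) = σ := by
    unfold vv
    rw [hv2, hd]
    field_simp
    ring
  have hvd1 : vv θ b (d + 1) = - b * σ := by
    unfold vv
    have e : (((d + 1 : ℕ) : ℝ) + 1) * θ = ((d + 2 : ℕ) : ℝ) * θ := by push_cast; ring
    rw [e, hd, hv1]
    field_simp
    ring
  -- the eigenvalue equation
  have htop : β (d + 1) + (r - 1) * β (d + 2) = μ * (β (d + 2) / (q + 1)) := by
    rw [hβ]
    unfold bet
    rw [hvd, hvd1, pow_succ y (d + 1)]
    have hp : y ^ (d + 1) ≠ 0 := pow_ne_zero _ hy.ne'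
    have hk : y * b * (q + 1) = q * (r - 1) - y * w := by
      have h5 := hP.hb
      have : r * (y * b * (q + 1)) = r * (q * (r - 1) - y * w) := by
        linear_combination y * h5 + (r - 1) * hyy
      exact mul_left_cancel₀ hr0.ne' this
    field_simp
    rw [hμ]
    linear_combination (-σ) * hk
  have hM : MM E T₁ T₂ * X = μ • X := by
    have h1 := h.M_sum β μ hP.h0 hP.h1 d
    have h2 := h.M_Dk d
    have h3 := h.top_even d hbr
    rw [h3] at h2
    rw [hX, Matrix.mul_add, h1, Matrix.mul_smul, h2, smul_add μ]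
    have hq1 : q + 1 ≠ 0 := by linarith
    have e1 : (β (d + 2) / (q + 1)) • (((r * q * q) • DD E T₁ T₂ (d + 1) + ((r - 1) * q) • DD E T₁ T₂ (d + 2)) + (r * q) • DD E T₁ T₂ (d + 1) + (r - 1) • DD E T₁ T₂ (d + 2))
        = (r * q * β (d + 2)) • DD E T₁ T₂ (d + 1) + ((r - 1) * β (d + 2)) • DD E T₁ T₂ (d + 2) := by
      have a1 : (β (d + 2) / (q + 1)) * (r * q * q) + (β (d + 2) / (q + 1)) * (r * q) = r * q * β (d + 2) := by
        field_simp
      have a2 : (β (d + 2) / (q + 1)) * ((r - 1) * q) + (β (d + 2) / (q + 1)) * (r - 1) = (r - 1) * β (d + 2) := by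
        field_simp
      linear_combination (norm := module) a1 • DD E T₁ T₂ (d + 1) + a2 • DD E T₁ T₂ (d + 2)
    rw [e1]
    linear_combination (norm := module) htop • DD E T₁ T₂ (d + 2)
  have hPX : PP E T₁ * X = (q + 1) • X := by
    rw [hX, Matrix.mul_add, Matrix.mul_smul, h.P_D, smul_add, Finset.mul_sum, Finset.smul_sum, smul_comm]
    congr 1
    apply Finset.sum_congr rfl
    intro k _
    rw [Matrix.mul_smul, h.P_D, smul_comm]
  have hD := h.D_mul_eigen hM hPX (pii q y θ b) hP.pi0 hP.pi1 hP.pi2 hP.pi3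
  set S : ℝ := (q + 1) * (∑ k ∈ Finset.range (d + 2), β k * pii q y θ b k + (β (d + 2) / (q + 1)) * pii q y θ b (d + 2)) with hS
  have hXX : X * X = S • X := by
    have e1 : (∑ k ∈ Finset.range (d + 2), β k • DD E T₁ T₂ k) * X = (∑ k ∈ Finset.range (d + 2), (q + 1) * (β k * pii q y θ b k)) • X := by
      rw [Finset.sum_mul, Finset.sum_smul]
      apply Finset.sum_congr rfl
      intro k _
      rw [Matrix.smul_mul, hD, smul_smul]
      congr 1
      ring
    conv_lhs => rw [hX]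
    rw [Matrix.add_mul, e1, Matrix.smul_mul, hD, smul_smul, ← add_smul, hS, ← Finset.mul_sum, mul_add]
    congr 2
    ring
  have htrD : ∀ k, k ≤ d + 1 → (DD E T₁ T₂ (k + 1)).trace = 0 := by
    intro k hk
    rw [h.trace_Dk, hta k hk, htb k hk]
    ring
  have htX : X.trace = E.trace := by
    rw [hX, Matrix.trace_add, Matrix.trace_smul, htrD (d + 1) le_rfl, smul_zero, add_zero, Matrix.trace_sum,
      Finset.sum_range_succ']
    have : ∑ k ∈ Finset.range (d + 1), (β (k + 1) • DD E T₁ T₂ (k + 1)).trace = 0 := by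
      apply Finset.sum_eq_zero
      intro k hk
      rw [Matrix.trace_smul, htrD k (by simp at hk; omega), smul_zero]
    rw [this, zero_add, Matrix.trace_smul, h.trace_D0, ht1, zero_add, smul_eq_mul, hβ]
    unfold bet
    rw [vv_zero b hs]
    simp
  obtain ⟨m, hm, hNm⟩ := exists_nat_of_sq hXX htX hN
  refine ⟨m, hm, ?_⟩
  -- evaluation of the scalar
  have hq1 : q + 1 ≠ 0 := by linarith
  have e1 : (β (d + 2) / (q + 1)) * pii q y θ b (d + 2) = 1 / q := by
    have := hP.bet_pi (d + 1)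
    rw [show d + 1 + 1 = d + 2 from rfl, hvd, hσ2] at this
    rw [div_mul_eq_mul_div, this]
    field_simp
  have e2 := hP.sum_bet_pi (d + 1)
  rw [show d + 1 + 1 = d + 2 from rfl] at e2
  have e3 : S = (q + 1) * ((q + 1) / q) * ∑ k ∈ Finset.range (d + 2), vv θ b k ^ 2 := by
    rw [hS, e1, hβ, e2]
    field_simp
    ring
  have e4 := sum_sq_even b hs hd
  have e5 : ∑ k ∈ Finset.range (d + 2), vv θ b k ^ 2 = ((d + 2 : ℕ) / 2 : ℝ) * (1 + w * b + b ^ 2) / sin θ ^ 2 := by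
    rw [hP.sum_vv, e4, hw]
    ring
  have e6 : (4 - w ^ 2) = 4 * sin θ ^ 2 := by
    rw [hw]
    have := sin_sq_add_cos_sq θ
    nlinarith
  have e7 := key_Q (w := w) hr0.ne' hyy hP.hb
  rw [hNm, e6, e3, e5]
  have hs2 : sin θ ^ 2 ≠ 0 := pow_ne_zero _ hs
  rw [← e7, hyy]
  push_cast
  field_simp
  ring

/-- The multiplicity formula when the number of letters is odd. -/
theorem spec_odd (h : HK E T₁ T₂ q q) (hq : 1 < q) (d : ℕ)
    (hbr : (alt E T₁ T₂ (2 * d + 3)).1 = (alt E T₁ T₂ (2 * d + 3)).2)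
    (hta : ∀ k, k ≤ d → (alt E T₁ T₂ (2 * k + 2)).1.trace = 0)
    (htb : ∀ k, k ≤ d → (alt E T₁ T₂ (2 * k + 1)).2.trace = 0)
    (ht1 : T₁.trace = 0) (hN : E.trace ≠ 0) {θ : ℝ} (hs : sin θ ≠ 0)
    (hc : cos (((2 * d + 3 : ℕ) : ℝ) * θ) = 1) (hn : sin (((2 * d + 3 : ℕ) : ℝ) * θ) = 0) :
    ∃ m : ℕ, m ≠ 0 ∧ E.trace * (q * (2 - 2 * cos θ)) = m * (2 * d + 3) * (q * q + 1 - q * (2 * cos θ)) := by
  have hq0 : 0 < q := by linarith
  have hq1 : q + 1 ≠ 0 := by linarith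
  set w : ℝ := 2 * cos θ with hw
  set b : ℝ := (q - 1 - w) / (q + 1) with hb
  set μ : ℝ := q - 1 + q * w with hμ
  have hbq : b * (q + 1) = q - 1 - w := by
    rw [hb]
    field_simp
  have hP : Par q q q θ b μ := by
    refine ⟨hq, hq, hq0, rfl, hs, ?_, hμ⟩
    linear_combination q * hbq
  set β := bet q θ b with hβ
  set X : Matrix ι ι ℝ := ∑ k ∈ Finset.range (d + 2), β k • DD E T₁ T₂ k with hX
  -- the top of the sequence
  set u := sin (((d + 2 : ℕ) : ℝ) * θ) with hu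
  set κ := cos (((d + 2 : ℕ) : ℝ) * θ) with hκ
  have ha1 : sin (((d + 1 : ℕ) : ℝ) * θ) = - u := by
    have e : ((d + 1 : ℕ) : ℝ) * θ = ((2 * d + 3 : ℕ) : ℝ) * θ - ((d + 2 : ℕ) : ℝ) * θ := by push_cast; ring
    rw [e, sin_sub, hn, hc]
    ring
  have ha2 : sin (((d + 1 : ℕ) : ℝ) * θ) = u * cos θ - κ * sin θ := by
    have e : ((d + 1 : ℕ) : ℝ) * θ = ((d + 2 : ℕ) : ℝ) * θ - θ := by push_cast; ring
    rw [e, sin_sub]
  have ha3 : κ * sin θ = u * (1 + cos θ) := by linarith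
  have ha4 : sin ((((d + 2 : ℕ) : ℝ) + 1) * θ) = u * (1 + 2 * cos θ) := by
    have e : (((d + 2 : ℕ) : ℝ) + 1) * θ = ((d + 2 : ℕ) : ℝ) * θ + θ := by ring
    rw [e, sin_add]
    linear_combination ha3
  have hvv : vv θ b (d + 2) = q * vv θ b (d + 1) := by
    unfold vv
    have e : (((d + 1 : ℕ) : ℝ) + 1) * θ = ((d + 2 : ℕ) : ℝ) * θ := by push_cast; ring
    rw [e, ha4, ha1]
    rw [← hu]
    field_simp
    linear_combination u * hbq
  have hbb : β (d + 1) = β (d + 2) := by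
    rw [hβ]
    unfold bet
    rw [hvv, pow_succ q (d + 1)]
    have hp : q ^ (d + 1) ≠ 0 := pow_ne_zero _ hq0.ne'
    field_simp
  have hM : MM E T₁ T₂ * X = μ • X := by
    have h1 := h.M_sum β μ hP.h0 hP.h1 d
    rw [hX, h1, h.top_odd d hbr, hbb]
    (module)
  have hPX : PP E T₁ * X = (q + 1) • X := by
    rw [hX, Finset.mul_sum, Finset.smul_sum]
    apply Finset.sum_congr rfl
    intro k _
    rw [Matrix.mul_smul, h.P_D, smul_comm]
  have hD := h.D_mul_eigen hM hPX (pii q q θ b) hP.pi0 hP.pi1 hP.pi2 hP.pi3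
  set S : ℝ := (q + 1) * (∑ k ∈ Finset.range (d + 2), β k * pii q q θ b k) with hS
  have hXX : X * X = S • X := by
    conv_lhs => rw [hX]
    rw [Finset.sum_mul, hS, Finset.mul_sum, Finset.sum_smul]
    apply Finset.sum_congr rfl
    intro k _
    rw [Matrix.smul_mul, hD, smul_smul]
    congr 1
    ring
  have htrD : ∀ k, k ≤ d → (DD E T₁ T₂ (k + 1)).trace = 0 := by
    intro k hk
    rw [h.trace_Dk, hta k hk, htb k hk]
    ring
  have htX : X.trace = E.trace := by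
    rw [hX, Matrix.trace_sum, Finset.sum_range_succ']
    have : ∑ k ∈ Finset.range (d + 1), (β (k + 1) • DD E T₁ T₂ (k + 1)).trace = 0 := by
      apply Finset.sum_eq_zero
      intro k hk
      rw [Matrix.trace_smul, htrD k (by simp at hk; omega), smul_zero]
    rw [this, zero_add, Matrix.trace_smul, h.trace_D0, ht1, zero_add, smul_eq_mul, hβ]
    unfold bet
    rw [vv_zero b hs]
    simp
  obtain ⟨m, hm, hNm⟩ := exists_nat_of_sq hXX htX hN
  refine ⟨m, hm, ?_⟩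
  -- evaluation of the scalar
  have e2 := hP.sum_bet_pi (d + 1)
  rw [show d + 1 + 1 = d + 2 from rfl] at e2
  have hsum := sum_sq θ b (d + 2)
  set F := ∑ k ∈ Finset.range (d + 2), (sin ((k + 1) * θ) + b * sin (k * θ)) ^ 2 with hF
  have t1 : sin (2 * ((d + 2 : ℕ) : ℝ) * θ + θ) = 2 * sin θ * cos θ := by
    have e : 2 * ((d + 2 : ℕ) : ℝ) * θ + θ = ((2 * d + 3 : ℕ) : ℝ) * θ + 2 * θ := by push_cast; ring
    rw [e, sin_add, hn, hc, sin_two_mul]
    ring
  have t2 : sin (2 * ((d + 2 : ℕ) : ℝ) * θ) = sin θ := by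
    have e : 2 * ((d + 2 : ℕ) : ℝ) * θ = ((2 * d + 3 : ℕ) : ℝ) * θ + θ := by push_cast; ring
    rw [e, sin_add, hn, hc]
    ring
  have t3 : sin (2 * ((d + 2 : ℕ) : ℝ) * θ - θ) = 0 := by
    have e : 2 * ((d + 2 : ℕ) : ℝ) * θ - θ = ((2 * d + 3 : ℕ) : ℝ) * θ := by push_cast; ring
    rw [e, hn]
  rw [t1, t2, t3] at hsum
  have hF4 : 4 * F = (2 * d + 3) * (1 + w * b + b ^ 2) + (2 - w) * (1 - b) := by
    apply mul_left_cancel₀ hs
    rw [hw]
    push_cast at hsum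
    linear_combination hsum
  have hs2 : sin θ ^ 2 ≠ 0 := pow_ne_zero _ hs
  have hw4 : 4 * sin θ ^ 2 = (2 - w) * (2 + w) := by
    rw [hw]
    have := sin_sq_add_cos_sq θ
    nlinarith
  have h2w : 2 - w ≠ 0 := by
    intro h0
    apply hs2
    rw [h0] at hw4
    linarith
  have h2w' : 2 + w ≠ 0 := by
    intro h0
    apply hs2
    rw [h0] at hw4
    linarith
  have e3 : ∑ k ∈ Finset.range (d + 2), vv θ b k ^ 2 = F / sin θ ^ 2 := hP.sum_vv _
  have e4 : (q + 1) * (1 - b) = 2 + w := by linear_combination (-1 : ℝ) * hbq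
  have e5 : (q + 1) ^ 2 * (1 + w * b + b ^ 2) = (q * q + 1 - q * w) * (2 + w) := by
    linear_combination (w * (q + 1) + b * (q + 1) + (q - 1 - w)) * hbq
  have e6 : (q + 1) ^ 2 * (4 * F) = (2 + w) * ((2 * d + 3) * (q * q + 1 - q * w) + (q + 1) * (2 - w)) := by
    rw [hF4]
    linear_combination (2 * d + 3 : ℝ) * e5 + ((q + 1) * (2 - w)) * e4
  have e7 : S * (q * (2 - w)) = (2 * d + 3) * (q * q + 1 - q * w) := by
    rw [hS, hβ, e2, e3]
    have : (q + 1) * (1 + (q + 1) / q * (F / sin θ ^ 2 - 1)) * (q * (2 - w)) =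
        ((q + 1) ^ 2 * (4 * F)) * (2 - w) / (4 * sin θ ^ 2) - (q + 1) * (2 - w) := by
      field_simp
      ring
    rw [this, e6, hw4]
    field_simp
    ring
  rw [hNm, mul_assoc, e7]
  ring

end Cfsg.Agent.Lib.FH
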