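/-
Feit-Higman: rationality of the multiplicities forces the number of letters to be small.
-/
import Cfsg.Agent.Lib.FH.Spec

set_option autoImplicit false

namespace Cfsg.Agent.Lib.FH

open Real Matrix

/-- The rational numbers inside the real numbers. -/
noncomputable def KK : Subfield ℝ := (algebraMap ℚ ℝ).fieldRange

lemma nat_mem (n : ℕ) : (n : ℝ) ∈ KK := natCast_mem KK n

lemma two_mem : (2 : ℝ) ∈ KK := by exact_mod_cast nat_mem 2

lemma mem_KK {x : ℝ} : x ∈ KK ↔ ∃ q : ℚ, x = q := by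
  constructor
  · rintro ⟨q, rfl⟩
    exact ⟨q, rfl⟩
  · rintro ⟨q, rfl⟩
    exact ⟨q, rfl⟩

variable {ι : Type*} [Fintype ι] [DecidableEq ι] {E T₁ T₂ : Matrix ι ι ℝ} {q r : ℝ}

/-- From the multiplicity at an angle and at the opposite angle. -/
lemma yw_mem {y w ρ₁ ρ₂ ab c Y : ℝ} (hY : y * y = Y) (hYK : Y ∈ KK) (habK : ab ∈ KK) (hcK : c ∈ KK) (hc : c ≠ 0)
    (h4 : ab ≠ 4 * Y) (hρ₁ : ρ₁ ∈ KK) (hρ₂ : ρ₂ ∈ KK)
    (h1 : ab + c * y * w - Y * w ^ 2 = ρ₁ * (Y * (4 - w ^ 2)))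
    (h2 : ab + c * y * (-w) - Y * (-w) ^ 2 = ρ₂ * (Y * (4 - (-w) ^ 2))) : y * w ∈ KK := by
  have e1 : ab - Y * w ^ 2 = ((ρ₁ + ρ₂) * Y / 2) * (4 - w ^ 2) := by
    linear_combination (1 / 2 : ℝ) * h1 + (1 / 2 : ℝ) * h2
  set A := (ρ₁ + ρ₂) * Y / 2 with hA
  have hAK : A ∈ KK := div_mem (mul_mem (add_mem hρ₁ hρ₂) hYK) two_mem
  have hne : Y - A ≠ 0 := by
    intro h0
    have : Y = A := by linarith
    apply h4
    rw [← this] at e1
    linarith
  have hw2 : w ^ 2 = (ab - 4 * A) / (Y - A) := by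
    field_simp
    linear_combination (-1 : ℝ) * e1
  have hw2K : w ^ 2 ∈ KK := by
    rw [hw2]
    have h4K : (4 : ℝ) ∈ KK := by exact_mod_cast nat_mem 4
    exact div_mem (sub_mem habK (mul_mem h4K hAK)) (sub_mem hYK hAK)
  have e2 : y * w = (ρ₁ - ρ₂) * (Y * (4 - w ^ 2)) / (2 * c) := by
    field_simp
    linear_combination h1 - h2
  rw [e2]
  have h4K : (4 : ℝ) ∈ KK := by exact_mod_cast nat_mem 4
  exact div_mem (mul_mem (sub_mem hρ₁ hρ₂) (mul_mem hYK (sub_mem h4K hw2K))) (mul_mem two_mem hcK)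

/-- The even case. -/
theorem even_case (h : HK E T₁ T₂ q r) (hq : 1 < q) (hr : 1 < r) (hqK : q ∈ KK) (hrK : r ∈ KK) (hNK : E.trace ∈ KK)
    (hN : E.trace ≠ 0) (ht1 : T₁.trace = 0) (d : ℕ) (hd : 1 ≤ d)
    (hbr : (alt E T₁ T₂ (2 * d + 4)).1 = (alt E T₁ T₂ (2 * d + 4)).2)
    (hta : ∀ k, k ≤ d + 1 → (alt E T₁ T₂ (2 * k + 2)).1.trace = 0)
    (htb : ∀ k, k ≤ d + 1 → (alt E T₁ T₂ (2 * k + 1)).2.trace = 0) : d = 1 ∨ d = 2 := by
  have hq0 : 0 < q := by linarith
  have hr0 : 0 < r := by linarith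
  set y : ℝ := √(q * r) with hy
  have hyy : y * y = q * r := mul_self_sqrt (by positivity)
  have hy0 : 0 < y := sqrt_pos.2 (by positivity)
  have hK : (((d + 2 : ℕ) : ℝ)) ≠ 0 := by positivity
  set Y : ℝ := q * r with hY
  have hYK : Y ∈ KK := mul_mem hqK hrK
  have h1K : (1 : ℝ) ∈ KK := one_mem _
  set ab : ℝ := (q + r) * (q * r + 1) with hab
  have habK : ab ∈ KK := mul_mem (add_mem hqK hrK) (add_mem hYK h1K)
  set c : ℝ := (q - 1) * (r - 1) with hc
  have hcK : c ∈ KK := mul_mem (sub_mem hqK h1K) (sub_mem hrK h1K)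
  have hc0 : c ≠ 0 := (mul_pos (sub_pos.2 hq) (sub_pos.2 hr)).ne'
  have h4 : ab ≠ 4 * Y := by
    have : 0 < ab - 4 * Y := by
      have e : ab - 4 * Y = (q + r) * c + (q - r) ^ 2 := by rw [hab, hc, hY]; ring
      rw [e]
      have := mul_pos (add_pos hq0 hr0) (mul_pos (sub_pos.2 hq) (sub_pos.2 hr))
      positivity
    linarith
  have hNum : ∀ j : ℕ, 0 < j → j < d + 2 → ∃ ρ ∈ KK, ab + c * y * (2 * cos (j * (π / (d + 2)))) - Y * (2 * cos (j * (π / (d + 2)))) ^ 2 =
      ρ * (Y * (4 - (2 * cos (j * (π / (d + 2)))) ^ 2)) := by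
    intro j h0 hj
    set θ : ℝ := j * (π / (d + 2)) with hθ
    have hjR : (j : ℝ) < d + 2 := by exact_mod_cast hj
    have hj0 : (0 : ℝ) < j := by exact_mod_cast h0
    have hd2 : (0 : ℝ) < (d : ℝ) + 2 := by positivity
    have hθ0 : 0 < θ := by
      rw [hθ]
      have := pi_pos
      positivity
    have hθ1 : θ < π := by
      rw [hθ, ← mul_div_assoc, mul_comm (j : ℝ), mul_div_assoc]
      have : (j : ℝ) / (d + 2) < 1 := (div_lt_one hd2).2 hjR
      nlinarith [pi_pos]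
    have hs : sin θ ≠ 0 := (sin_pos_of_pos_of_lt_pi hθ0 hθ1).ne'
    have hdd : sin (((d + 2 : ℕ) : ℝ) * θ) = 0 := by
      have e : ((d + 2 : ℕ) : ℝ) * θ = (j : ℝ) * π := by
        rw [hθ]
        push_cast
        field_simp
      rw [e]
      exact sin_nat_mul_pi j
    obtain ⟨m, hm, he⟩ := spec_even h hq hr d hbr hta htb ht1 hN hy0 hyy hs hdd
    refine ⟨E.trace / (m * (2 * (d + 2))), ?_, ?_⟩
    · have h2K : ((d : ℝ) + 2) ∈ KK := add_mem (nat_mem d) two_mem
      exact div_mem hNK (mul_mem (nat_mem m) (mul_mem two_mem h2K))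
    · have hm0 : (m : ℝ) ≠ 0 := by exact_mod_cast hm
      have hd3 : (d : ℝ) + 2 ≠ 0 := hd2.ne'
      rw [hyy] at he
      field_simp
      linear_combination (-1 : ℝ) * he
  -- the angle and the opposite angle
  have hOpp : ∀ j : ℕ, 0 < j → j < d + 2 → y * (2 * cos (j * (π / (d + 2)))) ∈ KK := by
    intro j h0 hj
    obtain ⟨ρ₁, h1, e1⟩ := hNum j h0 hj
    obtain ⟨ρ₂, h2, e2⟩ := hNum (d + 2 - j) (by omega) (by omega)
    have hc1 : cos (((d + 2 - j : ℕ) : ℝ) * (π / (d + 2))) = - cos (j * (π / (d + 2))) := by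
      have e : ((d + 2 - j : ℕ) : ℝ) * (π / (d + 2)) = π - j * (π / (d + 2)) := by
        rw [Nat.cast_sub hj.le]
        push_cast
        have hd2 : (d : ℝ) + 2 ≠ 0 := by positivity
        field_simp
      rw [e, cos_pi_sub]
    rw [hc1, show 2 * -cos (j * (π / (d + 2))) = -(2 * cos (j * (π / (d + 2)))) by ring] at e2
    exact yw_mem hyy hYK habK hcK hc0 h4 h1 h2 e1 e2
  set θ : ℝ := π / (d + 2) with hθ
  have hx1 := hOpp 1 one_pos (by omega)
  have hx2 := hOpp 2 two_pos (by omega)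
  simp only [Nat.cast_one, one_mul, Nat.cast_ofNat] at hx1 hx2
  have hd2 : (0 : ℝ) < (d : ℝ) + 2 := by positivity
  have hdR : (1 : ℝ) ≤ d := by exact_mod_cast hd
  have e2 : y * (y * (2 * cos (2 * θ))) = (y * (2 * cos θ)) ^ 2 - 2 * Y := by
    rw [cos_two_mul]
    linear_combination (-2 : ℝ) * hyy
  by_cases hx0 : y * (2 * cos (2 * θ)) = 0
  · right
    have hc0 : cos (2 * θ) = 0 := by
      have := mul_eq_zero.1 hx0
      rcases this with h | h
      · exact absurd h hy0.ne'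
      · linarith
    have hθ1 : 2 * θ ∈ Set.Icc 0 π := by
      constructor
      · have := pi_pos
        positivity
      · rw [hθ, ← mul_div_assoc, div_le_iff₀ hd2]
        nlinarith [pi_pos]
    have hθ2 : π / 2 ∈ Set.Icc 0 π := ⟨by linarith [pi_pos], by linarith [pi_pos]⟩
    have := injOn_cos hθ1 hθ2 (by rw [hc0, cos_pi_div_two])
    rw [hθ] at this
    have hpi := pi_pos.ne'
    field_simp at this
    have e : (d : ℝ) = 2 := by linarith
    exact_mod_cast e
  · left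
    have hyK : y ∈ KK := by
      have hc2 : cos (2 * θ) ≠ 0 := fun h => hx0 (by rw [h]; ring)
      have e : y = ((y * (2 * cos θ)) ^ 2 - 2 * Y) / (y * (2 * cos (2 * θ))) := by
        rw [← e2]
        field_simp
      rw [e]
      exact div_mem (sub_mem (pow_mem hx1 2) (mul_mem two_mem hYK)) hx2
    have hwK : cos θ ∈ KK := by
      have e : cos θ = (y * (2 * cos θ)) / y / 2 := by
        field_simp
      rw [e]
      exact div_mem (div_mem hx1 hyK) two_mem
    obtain ⟨p, hp⟩ := mem_KK.1 hwK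
    have hh := niven_angle_div_pi_eq (r := (1 / (d + 2) : ℚ)) ⟨p, by
      rw [← hp, hθ]
      congr 1
      push_cast
      field_simp⟩ (by
        constructor
        · positivity
        · rw [div_le_one (by positivity)]
          have : (0 : ℚ) ≤ d := by positivity
          linarith)
    have hdQ : (1 : ℚ) ≤ d := by exact_mod_cast hd
    have hd3 : (0 : ℚ) < (d : ℚ) + 2 := by positivity
    simp only [Set.mem_insert_iff, Set.mem_singleton_iff] at hh
    rcases hh with h | h | h | h | h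
    · exfalso
      have : (0 : ℚ) < 1 / (d + 2) := by positivity
      linarith
    · have : (d : ℚ) = 1 := by
        field_simp at h
        linarith
      exact_mod_cast this
    · exfalso
      field_simp at h
      linarith
    · exfalso
      field_simp at h
      linarith
    · exfalso
      field_simp at h
      linarith

/-- The odd case. -/
theorem odd_case (h : HK E T₁ T₂ q q) (hq : 1 < q) (hqK : q ∈ KK) (hNK : E.trace ∈ KK)
    (hN : E.trace ≠ 0) (ht1 : T₁.trace = 0) (d : ℕ) (hd : 1 ≤ d)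
    (hbr : (alt E T₁ T₂ (2 * d + 3)).1 = (alt E T₁ T₂ (2 * d + 3)).2)
    (hta : ∀ k, k ≤ d → (alt E T₁ T₂ (2 * k + 2)).1.trace = 0)
    (htb : ∀ k, k ≤ d → (alt E T₁ T₂ (2 * k + 1)).2.trace = 0) : False := by
  have hq0 : 0 < q := by linarith
  have hn0 : (0 : ℝ) < 2 * (d : ℝ) + 3 := by positivity
  set θ : ℝ := 2 * π / (2 * d + 3) with hθ
  have hθ0 : 0 < θ := by
    rw [hθ]
    have := pi_pos
    positivity
  have hdR : (1 : ℝ) ≤ d := by exact_mod_cast hd
  have hθ1 : θ < π := by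
    rw [hθ, div_lt_iff₀ hn0]
    nlinarith [pi_pos]
  have hs : sin θ ≠ 0 := (sin_pos_of_pos_of_lt_pi hθ0 hθ1).ne'
  have he : ((2 * d + 3 : ℕ) : ℝ) * θ = 2 * π := by
    rw [hθ]
    push_cast
    field_simp
  obtain ⟨m, hm, e⟩ := spec_odd h hq d hbr hta htb ht1 hN hs (by rw [he, cos_two_pi]) (by rw [he, sin_two_pi])
  set w : ℝ := 2 * cos θ with hw
  have hm0 : (m : ℝ) ≠ 0 := by exact_mod_cast hm
  set ρ : ℝ := E.trace / (m * (2 * d + 3)) with hρ
  have h3K : (3 : ℝ) ∈ KK := by exact_mod_cast nat_mem 3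
  have hρK : ρ ∈ KK := div_mem hNK (mul_mem (nat_mem m) (add_mem (mul_mem two_mem (nat_mem d)) h3K))
  have e1 : ρ * (q * (2 - w)) = q * q + 1 - q * w := by
    rw [hρ]
    field_simp
    linear_combination e
  have hne : 1 - ρ ≠ 0 := by
    intro h0
    have : ρ = 1 := by linarith
    rw [this] at e1
    have : (q - 1) ^ 2 = 0 := by linear_combination (-1 : ℝ) * e1
    have := pow_eq_zero_iff (two_ne_zero) |>.1 this
    linarith
  have hwK : w ∈ KK := by
    have e2 : w = (q * q + 1 - 2 * ρ * q) / (q * (1 - ρ)) := by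
      field_simp
      linear_combination e1
    rw [e2]
    exact div_mem (sub_mem (add_mem (mul_mem hqK hqK) (one_mem _)) (mul_mem (mul_mem two_mem hρK) hqK))
      (mul_mem hqK (sub_mem (one_mem _) hρK))
  have hcK : cos θ ∈ KK := by
    have e2 : cos θ = w / 2 := by rw [hw]; ring
    rw [e2]
    exact div_mem hwK two_mem
  obtain ⟨p, hp⟩ := mem_KK.1 hcK
  have hh := niven_angle_div_pi_eq (r := (2 / (2 * d + 3) : ℚ)) ⟨p, by
    rw [← hp, hθ]
    congr 1
    push_cast
    field_simp⟩ (by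
      constructor
      · positivity
      · rw [div_le_one (by positivity)]
        have : (0 : ℚ) ≤ d := by positivity
        linarith)
  have hdQ : (1 : ℚ) ≤ d := by exact_mod_cast hd
  have hd3 : (0 : ℚ) < 2 * (d : ℚ) + 3 := by positivity
  simp only [Set.mem_insert_iff, Set.mem_singleton_iff] at hh
  rcases hh with h | h | h | h | h
  · have : (0 : ℚ) < 2 / (2 * d + 3) := by positivity
    linarith
  · field_simp at h
    have h' : (2 * (d : ℤ) + 3 : ℤ) = 6 := by
      have : ((2 * (d : ℤ) + 3 : ℤ) : ℚ) = 6 := by push_cast; linarith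
      exact_mod_cast this
    omega
  · field_simp at h
    have h' : (2 * (d : ℤ) + 3 : ℤ) = 4 := by
      have : ((2 * (d : ℤ) + 3 : ℤ) : ℚ) = 4 := by push_cast; linarith
      exact_mod_cast this
    omega
  · field_simp at h
    linarith
  · field_simp at h
    linarith

/-- The Feit-Higman theorem at the level of operators. -/
theorem fh_main (h : HK E T₁ T₂ q r) (hq : 1 < q) (hr : 1 < r) (hqK : q ∈ KK) (hrK : r ∈ KK) (hNK : E.trace ∈ KK)
    (hN : E.trace ≠ 0) (ht1 : T₁.trace = 0) (n : ℕ) (hn : 2 ≤ n) (hodd : Odd n → q = r)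
    (hbr : (alt E T₁ T₂ n).1 = (alt E T₁ T₂ n).2)
    (hta : ∀ m, 1 ≤ m → m ≤ n → (alt E T₁ T₂ m).1.trace = 0)
    (htb : ∀ m, 1 ≤ m → m ≤ n → (alt E T₁ T₂ m).2.trace = 0) : n ∈ ({2, 3, 4, 6, 8} : Set ℕ) := by
  simp only [Set.mem_insert_iff, Set.mem_singleton_iff]
  by_cases h5 : n ≤ 4
  · omega
  rcases Nat.even_or_odd' n with ⟨k, rfl | rfl⟩
  · obtain ⟨d, rfl⟩ : ∃ d, k = d + 2 := ⟨k - 2, by omega⟩
    rw [show 2 * (d + 2) = 2 * d + 4 by ring] at hbr hta htb
    have := even_case h hq hr hqK hrK hNK hN ht1 d (by omega) hbr (fun j hj => hta _ (by omega) (by omega))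
      (fun j hj => htb _ (by omega) (by omega))
    omega
  · exfalso
    obtain ⟨d, rfl⟩ : ∃ d, k = d + 1 := ⟨k - 1, by omega⟩
    rw [show 2 * (d + 1) + 1 = 2 * d + 3 by ring] at hbr hta htb hodd
    have e := hodd ⟨d + 1, by ring⟩
    subst e
    exact odd_case h hq hqK hNK hN ht1 d (by omega) hbr (fun j hj => hta _ (by omega) (by omega))
      (fun j hj => htb _ (by omega) (by omega))

end Cfsg.Agent.Lib.FH
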