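/-
Feit-Higman: a Weyl group with two generators is dihedral; alternating words and their lengths.
-/
import Cfsg.Agent.Lib.BNSt.Cox

set_option autoImplicit false

namespace Cfsg.Agent.Lib.FH

open Cfsg.Agent.Lib.BNSt

variable {W : Type*} [Group W]

/-- The alternating words. -/
def altW (x y : W) : ℕ → W × W
  | 0 => (1, 1)
  | k + 1 => (x * (altW x y k).2, y * (altW x y k).1)

lemma altW_swap (x y : W) (k : ℕ) : altW y x k = ((altW x y k).2, (altW x y k).1) := by
  induction k with
  | zero => rfl
  | succ k ih =>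
    show (y * (altW y x k).2, x * (altW y x k).1) = (y * (altW x y k).1, x * (altW x y k).2)
    rw [ih]

section

variable {x y : W} (hx : x * x = 1) (hy : y * y = 1)
include hx hy

lemma rho_inv : (x * y)⁻¹ = y * x := by
  rw [mul_inv_rev, inv_eq_of_mul_eq_one_left hx, inv_eq_of_mul_eq_one_left hy]

lemma altW_even (m : ℕ) : (altW x y (2 * m)).1 = (x * y) ^ m ∧ (altW x y (2 * m)).2 = ((x * y)⁻¹) ^ m := by
  induction m with
  | zero => simp [altW]
  | succ m ih =>
    have e : 2 * (m + 1) = 2 * m + 1 + 1 := by ring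
    rw [e]
    constructor
    · show x * (y * (altW x y (2 * m)).1) = _
      rw [ih.1, pow_succ', mul_assoc]
    · show y * (x * (altW x y (2 * m)).2) = _
      rw [ih.2, pow_succ', rho_inv hx hy, mul_assoc]

lemma semi_x : SemiconjBy x (x * y)⁻¹ (x * y) := by
  show x * (x * y)⁻¹ = x * y * x
  rw [rho_inv hx hy, mul_assoc]

lemma semi_y : SemiconjBy y (x * y) (x * y)⁻¹ := by
  show y * (x * y) = (x * y)⁻¹ * y
  rw [rho_inv hx hy, mul_assoc]

lemma altW_odd (m : ℕ) : (altW x y (2 * m + 1)).1 = (x * y) ^ m * x ∧ (altW x y (2 * m + 1)).2 = ((x * y)⁻¹) ^ m * y := by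
  have h := altW_even hx hy m
  constructor
  · show x * (altW x y (2 * m)).2 = _
    rw [h.2]
    exact (semi_x hx hy).pow_right m
  · show y * (altW x y (2 * m)).1 = _
    rw [h.1]
    exact (semi_y hx hy).pow_right m

/-- The second alternating word of odd length as a rotation times `x`. -/
lemma altW_odd' (m : ℕ) : (altW x y (2 * m + 1)).2 = ((x * y)⁻¹) ^ (m + 1) * x := by
  rw [(altW_odd hx hy m).2, pow_succ, mul_assoc, rho_inv hx hy, mul_assoc, hx, mul_one]

/-- The top words coincide. -/
lemma altW_top : (altW x y (orderOf (x * y))).1 = (altW x y (orderOf (x * y))).2 := by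
  set n := orderOf (x * y) with hn
  have h1 : (x * y) ^ n = 1 := pow_orderOf_eq_one _
  rcases Nat.even_or_odd' n with ⟨m, e | e⟩
  · rw [e] at h1 ⊢
    rw [(altW_even hx hy m).1, (altW_even hx hy m).2, inv_pow, eq_inv_iff_mul_eq_one, ← pow_add, ← two_mul, h1]
  · rw [e] at h1 ⊢
    rw [(altW_odd hx hy m).1, altW_odd' hx hy m]
    congr 1
    rw [inv_pow, eq_inv_iff_mul_eq_one, ← pow_add, show m + (m + 1) = 2 * m + 1 by ring, h1]

/-- Separation of the alternating words. -/
lemma sep_aux {n : ℕ} (hn : orderOf (x * y) = n) (h2 : 2 ≤ n) {j k : ℕ} (hjk : j ≤ k) (hk : k ≤ n) (hp : j % 2 = k % 2)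
    (h : (altW x y k).1 = (altW x y j).1 ∨ (altW x y k).1 = (altW x y j).2) : j = k := by
  have hpow : ∀ a b : ℕ, a ≤ n / 2 → b ≤ n / 2 → (x * y) ^ a = (x * y) ^ b → a = b := by
    intro a b ha hb e
    exact pow_injOn_Iio_orderOf (show a ∈ Set.Iio (orderOf (x * y)) by rw [hn]; simp only [Set.mem_Iio]; omega)
      (show b ∈ Set.Iio (orderOf (x * y)) by rw [hn]; simp only [Set.mem_Iio]; omega) e
  have hone : ∀ a : ℕ, 0 < a → a ≤ n → (x * y) ^ a = 1 → a = n := by
    intro a h0 ha e
    have := orderOf_dvd_of_pow_eq_one e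
    rw [hn] at this
    exact le_antisymm ha (Nat.le_of_dvd h0 this)
  rcases Nat.even_or_odd' k with ⟨a, rfl | rfl⟩
  · obtain ⟨b, rfl⟩ : ∃ b, j = 2 * b := ⟨j / 2, by omega⟩
    rcases h with h | h
    · rw [(altW_even hx hy a).1, (altW_even hx hy b).1] at h
      have := hpow a b (by omega) (by omega) h
      omega
    · rw [(altW_even hx hy a).1, (altW_even hx hy b).2, inv_pow, eq_inv_iff_mul_eq_one, ← pow_add] at h
      by_cases h0 : a + b = 0
      · omega
      · have := hone (a + b) (by omega) (by omega) h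
        omega
  · obtain ⟨b, rfl⟩ : ∃ b, j = 2 * b + 1 := ⟨j / 2, by omega⟩
    rcases h with h | h
    · rw [(altW_odd hx hy a).1, (altW_odd hx hy b).1, mul_left_inj] at h
      have := hpow a b (by omega) (by omega) h
      omega
    · rw [(altW_odd hx hy a).1, altW_odd' hx hy b, mul_left_inj, inv_pow, eq_inv_iff_mul_eq_one, ← pow_add] at h
      have := hone (a + (b + 1)) (by omega) (by omega) h
      omega

end

section

variable {X : CoxLen W} {x y : W} (hS : X.S = {x, y})
include hS

lemma hxS : x ∈ X.S := by rw [hS]; simp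
lemma hyS : y ∈ X.S := by rw [hS]; simp

/-- Every product of letters is an alternating word of at most the same length. -/
lemma reach (l : List W) (hl : ∀ s ∈ l, s ∈ X.S) : ∃ j ≤ l.length, l.prod = (altW x y j).1 ∨ l.prod = (altW x y j).2 := by
  have hx := X.sq x (hxS hS)
  have hy := X.sq y (hyS hS)
  induction l with
  | nil => exact ⟨0, le_rfl, Or.inl rfl⟩
  | cons s l ih =>
    obtain ⟨j, hj, e⟩ := ih (fun t ht => hl t (List.mem_cons_of_mem _ ht))
    have hs := hl s (by simp)
    rw [hS] at hs
    simp only [Set.mem_insert_iff, Set.mem_singleton_iff] at hs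
    rw [List.prod_cons, List.length_cons]
    rcases hs with rfl | rfl
    · rcases e with e | e
      · cases j with
        | zero =>
          refine ⟨1, by omega, Or.inl ?_⟩
          rw [e]
          simp [altW]
        | succ j =>
          refine ⟨j, by omega, Or.inr ?_⟩
          rw [e]
          show s * (s * (altW s y j).2) = _
          rw [← mul_assoc, hx, one_mul]
      · exact ⟨j + 1, by omega, Or.inl (by rw [e]; rfl)⟩
    · rcases e with e | e
      · exact ⟨j + 1, by omega, Or.inr (by rw [e]; rfl)⟩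
      · cases j with
        | zero =>
          refine ⟨1, by omega, Or.inr ?_⟩
          rw [e]
          simp [altW]
        | succ j =>
          refine ⟨j, by omega, Or.inl ?_⟩
          rw [e]
          show s * (s * (altW x s j).1) = _
          rw [← mul_assoc, hy, one_mul]

lemma reach_elem (w : W) : ∃ j ≤ X.len w, w = (altW x y j).1 ∨ w = (altW x y j).2 := by
  obtain ⟨l, hl, rfl, e⟩ := X.exists_word w
  obtain ⟨j, hj, h⟩ := reach hS l hl
  exact ⟨j, by omega, h⟩

/-- The parity of the length. -/
lemma par_alt (k : ℕ) : X.len (altW x y k).1 % 2 = k % 2 ∧ X.len (altW x y k).2 % 2 = k % 2 := by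
  induction k with
  | zero => simp [altW, X.len_one]
  | succ k ih =>
    constructor
    · have := X.step x (hxS hS) (altW x y k).2
      show X.len (x * (altW x y k).2) % 2 = _
      omega
    · have := X.step y (hyS hS) (altW x y k).1
      show X.len (y * (altW x y k).1) % 2 = _
      omega

lemma len_alt_le (k : ℕ) : X.len (altW x y k).1 ≤ k ∧ X.len (altW x y k).2 ≤ k := by
  induction k with
  | zero => simp [altW, X.len_one]
  | succ k ih =>
    constructor
    · have := X.step x (hxS hS) (altW x y k).2
      show X.len (x * (altW x y k).2) ≤ _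
      omega
    · have := X.step y (hyS hS) (altW x y k).1
      show X.len (y * (altW x y k).1) ≤ _
      omega

/-- The alternating words up to the order of the rotation are reduced. -/
lemma len_fst (hxy : x ≠ y) [Finite W] {k : ℕ} (hk : k ≤ orderOf (x * y)) : X.len (altW x y k).1 = k := by
  have hx := X.sq x (hxS hS)
  have hy := X.sq y (hyS hS)
  have h2 : 2 ≤ orderOf (x * y) := by
    have h0 : 0 < orderOf (x * y) := orderOf_pos _
    have h1 : orderOf (x * y) ≠ 1 := by
      intro h
      have := orderOf_eq_one_iff.1 h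
      apply hxy
      have e : x = y⁻¹ := eq_inv_of_mul_eq_one_left this
      rw [e, inv_eq_of_mul_eq_one_left hy]
    omega
  obtain ⟨j, hj, e⟩ := reach_elem hS (X := X) (altW x y k).1
  have hle := (len_alt_le hS (X := X) k).1
  have hp1 := (par_alt hS (X := X) k).1
  have hpj : j % 2 = k % 2 := by
    rcases e with e | e
    · have := (par_alt hS (X := X) j).1
      rw [← e] at this
      omega
    · have := (par_alt hS (X := X) j).2
      rw [← e] at this
      omega
  have := sep_aux hx hy rfl h2 (hj.trans hle) hk hpj e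
  omega

lemma len_snd (hxy : x ≠ y) [Finite W] {k : ℕ} (hk : k ≤ orderOf (x * y)) : X.len (altW x y k).2 = k := by
  have hx := X.sq x (hxS hS)
  have hy := X.sq y (hyS hS)
  have h1 : orderOf (y * x) = orderOf (x * y) := by
    rw [← rho_inv hx hy, orderOf_inv]
  have h2 := len_fst (x := y) (y := x) (X := X) (by rw [hS, Set.pair_comm]) hxy.symm (k := k) (by rw [h1]; exact hk)
  rw [altW_swap] at h2
  exact h2

/-- The order of the Weyl group. -/
lemma card_W (hxy : x ≠ y) [Finite W] : Nat.card W = 2 * orderOf (x * y) := by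
  have hx := X.sq x (hxS hS)
  have hy := X.sq y (hyS hS)
  set ρ := x * y with hρ
  set Z := Subgroup.zpowers ρ with hZ
  have hpar : ∀ k : ℕ, X.len (ρ ^ k) % 2 = 0 := by
    intro k
    have := (par_alt hS (X := X) (2 * k)).1
    rw [(altW_even hx hy k).1, Nat.mul_mod_right] at this
    exact this
  have hxZ : x ∉ Z := by
    intro h
    obtain ⟨k, hk⟩ := (mem_powers_iff_mem_zpowers).2 h
    have h1 := hpar k
    simp only at hk
    rw [hk, X.len_S (hxS hS)] at h1
    omega
  have hex : ∀ b : W, b ∈ Z ∨ b * x ∈ Z := by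
    intro b
    obtain ⟨j, -, e⟩ := reach_elem hS (X := X) b
    have hm : ∀ k : ℕ, ρ ^ k ∈ Z := fun k => Subgroup.pow_mem _ (Subgroup.mem_zpowers ρ) k
    have hmi : ∀ k : ℕ, (ρ⁻¹) ^ k ∈ Z := fun k => Subgroup.pow_mem _ (Subgroup.inv_mem _ (Subgroup.mem_zpowers ρ)) k
    rcases Nat.even_or_odd' j with ⟨a, rfl | rfl⟩
    · left
      rcases e with e | e
      · rw [e, (altW_even hx hy a).1]
        exact hm a
      · rw [e, (altW_even hx hy a).2]
        exact hmi a
    · right
      rcases e with e | e
      · rw [e, (altW_odd hx hy a).1, mul_assoc, hx, mul_one]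
        exact hm a
      · rw [e, altW_odd' hx hy a, mul_assoc, hx, mul_one]
        exact hmi _
  have hindex : Z.index = 2 := by
    rw [Subgroup.index_eq_two_iff]
    refine ⟨x, fun b => ?_⟩
    rcases hex b with h | h
    · right
      refine ⟨h, fun h' => hxZ ?_⟩
      have := Z.mul_mem (Z.inv_mem h) h'
      rwa [inv_mul_cancel_left] at this
    · left
      refine ⟨h, fun h' => hxZ ?_⟩
      have := Z.mul_mem (Z.inv_mem h') h
      rwa [inv_mul_cancel_left] at this
  have h1 := Subgroup.card_mul_index Z
  rw [hindex, hZ, Nat.card_zpowers] at h1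
  rw [← h1]
  ring

end

end Cfsg.Agent.Lib.FH
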