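/-
Feit-Higman: the operators attached to the double cosets of a (B,N)-pair on the functions on the group.
-/
import Cfsg.Agent.Lib.FH.Arith
import Cfsg.Agent.Lib.FH.Dih
import Cfsg.Agent.Lib.BNSt.Weyl

set_option autoImplicit false

namespace Cfsg.Agent.Lib.FH

open Cfsg Cfsg.Agent.Lib.BN Cfsg.Agent.Lib.BNSt

open scoped Classical

set_option linter.unusedSectionVars false

variable {G : Type*} [Group G] [Fintype G] (P : BNPair G)

/-- The normalising scalar. -/
noncomputable def cB : ℝ := (Nat.card P.B : ℝ)⁻¹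

/-- The operator attached to a double coset. -/
noncomputable def Tw (w : WG P) : Matrix G G ℝ := fun x y => if lbl P (x⁻¹ * y) = w then cB P else 0

/-- The structure constants, as a count. -/
noncomputable def cnt (w₁ w₂ : WG P) (v : G) : ℕ :=
  (Finset.univ.filter fun u : G => lbl P u = w₁ ∧ lbl P (u⁻¹ * v) = w₂).card

/-- The size of a double coset. -/
noncomputable def dg (w : WG P) : ℕ := (Finset.univ.filter fun u : G => lbl P u = w).card

variable {P}

lemma card_B_pos : 0 < Nat.card P.B := Nat.card_pos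

lemma card_B_ne : (Nat.card P.B : ℝ) ≠ 0 := by
  have := card_B_pos (P := P)
  positivity

lemma Tw_mul_apply (w₁ w₂ : WG P) (x y : G) :
    (Tw P w₁ * Tw P w₂) x y = cB P * cB P * cnt P w₁ w₂ (x⁻¹ * y) := by
  rw [Matrix.mul_apply]
  unfold Tw cnt
  rw [← Equiv.sum_comp (Equiv.mulLeft x)]
  simp only [Equiv.coe_mulLeft, inv_mul_cancel_left, mul_inv_rev, mul_assoc]
  rw [Finset.card_filter]
  push_cast
  simp only [Finset.mul_sum]
  apply Finset.sum_congr rfl
  intro u _
  by_cases h1 : lbl P u = w₁ <;> by_cases h2 : lbl P (u⁻¹ * (x⁻¹ * y)) = w₂ <;> simp [h1, h2]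

lemma card_coset (u₀ : G) : (Finset.univ.filter fun u : G => u₀⁻¹ * u ∈ P.B).card = Nat.card P.B := by
  rw [← Nat.subtype_card _ (p := fun u : G => u₀⁻¹ * u ∈ P.B) (by simp)]
  exact Nat.card_congr (Equiv.subtypeEquiv (Equiv.mulLeft u₀⁻¹) (fun u => Iff.rfl))

lemma ws_ne_one {t : G} (ht : t ∈ P.S) : ws P t ≠ 1 := by
  intro h
  exact S_not_mem_T ht ((ws_eq_one_iff (S_mem_N ht)).1 h)

lemma lbl_self {t : G} (ht : t ∈ P.S) : lbl P t = ws P t := lbl_ws (S_mem_N ht)

/-- Multiplying by an element of the double coset of a generator. -/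
lemma lbl_mul_of_S {t u : G} (ht : t ∈ P.S) (hu : lbl P u = ws P t) (g : G) :
    lbl P (u * g) = ws P t * lbl P g ∨ lbl P (u * g) = lbl P g := by
  obtain ⟨b₁, hb₁, b₂, hb₂, rfl⟩ := lbl_eq_iff.1 ((lbl_self ht).trans hu.symm)
  have e : b₁ * t * b₂ * g = b₁ * (t * (b₂ * g)) := by group
  rw [e, lbl_B_mul hb₁]
  rcases lbl_S_mul ht (b₂ * g) with h | h
  · left
    rw [h, lbl_B_mul hb₂]
  · right
    rw [h, lbl_B_mul hb₂]

lemma ws_sq' {t : G} (ht : t ∈ P.S) : ws P t * ws P t = 1 := ws_sq ht

lemma ws_inv' {t : G} (ht : t ∈ P.S) : (ws P t)⁻¹ = ws P t := inv_eq_of_mul_eq_one_left (ws_sq' ht)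

lemma wlen_S {t : G} (ht : t ∈ P.S) : wlen P (ws P t) = 1 := (coxLen P).len_S ⟨t, ht, rfl⟩

/-- The count when the lengths add. -/
lemma cnt_up {t : G} (ht : t ∈ P.S) {w : WG P} (h : wlen P (ws P t * w) = wlen P w + 1) (v : G) :
    cnt P (ws P t) w v = if lbl P v = ws P t * w then Nat.card P.B else 0 := by
  have hadd : wlen P (ws P t * w) = wlen P (ws P t) + wlen P w := by
    rw [h, wlen_S ht]
    ring
  unfold cnt
  split_ifs with hv
  · obtain ⟨n, hn, rfl⟩ := exists_rep w
    have e1 : lbl P (t * n) = ws P t * ws P n := by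
      rw [lbl_ws (mul_mem (S_mem_N ht) hn), ws_mul (S_mem_N ht) hn]
    obtain ⟨b₁, hb₁, b₂, hb₂, rfl⟩ := lbl_eq_iff.1 (e1.trans hv.symm)
    rw [← card_coset (b₁ * t)]
    congr 1
    ext u
    simp only [Finset.mem_filter, Finset.mem_univ, true_and]
    constructor
    · rintro ⟨h1, h2⟩
      have e2 : (b₁ * t)⁻¹ * u = t⁻¹ * (b₁⁻¹ * u) := by group
      set x := (b₁ * t)⁻¹ * u with hx
      have hl : lbl P x = 1 ∨ lbl P x = ws P t := by
        have h3 : lbl P (b₁ * t)⁻¹ = ws P t := by
          rw [lbl_inv, lbl_B_mul hb₁, lbl_self ht, ws_inv' ht]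
        rcases lbl_mul_of_S ht h3 u with h4 | h4
        · left
          rw [hx, h4, h1, ws_sq' ht]
        · right
          rw [hx, h4, h1]
      rcases hl with hl | hl
      · exact mem_B_of_lbl hl
      · exfalso
        have e3 : x * (u⁻¹ * (b₁ * (t * n) * b₂)) = n * b₂ := by
          rw [hx]
          group
        have h5 : lbl P (x * (u⁻¹ * (b₁ * (t * n) * b₂))) = lbl P x * lbl P (u⁻¹ * (b₁ * (t * n) * b₂)) :=
          lbl_mul_add (by rw [hl, h2]; exact hadd)
        rw [e3, lbl_mul_B hb₂, lbl_ws hn, hl, h2] at h5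
        have h6 : ws P t = 1 := by simpa using h5.symm
        exact ws_ne_one ht h6
    · intro hu
      have h1 : u = b₁ * t * ((b₁ * t)⁻¹ * u) := by group
      constructor
      · rw [h1, lbl_mul_B hu, lbl_B_mul hb₁, lbl_self ht]
      · have e3 : u⁻¹ * (b₁ * (t * n) * b₂) = ((b₁ * t)⁻¹ * u)⁻¹ * (n * b₂) := by group
        rw [e3, lbl_B_mul (inv_mem hu), lbl_mul_B hb₂, lbl_ws hn]
  · rw [Finset.card_eq_zero, Finset.filter_eq_empty_iff]
    rintro u - ⟨h1, h2⟩
    apply hv
    have e : u * (u⁻¹ * v) = v := by group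
    rw [← e, lbl_mul_add (by rw [h1, h2]; exact hadd), h1, h2]

/-- The count for the unit on the left. -/
lemma cnt_one_left (w : WG P) (v : G) : cnt P 1 w v = if lbl P v = w then Nat.card P.B else 0 := by
  unfold cnt
  split_ifs with hv
  · rw [← card_coset (1 : G)]
    congr 1
    ext u
    simp only [Finset.mem_filter, Finset.mem_univ, true_and, inv_one, one_mul]
    constructor
    · rintro ⟨h1, -⟩
      exact mem_B_of_lbl h1
    · intro hu
      exact ⟨lbl_B hu, by rw [lbl_B_mul (inv_mem hu), hv]⟩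
  · rw [Finset.card_eq_zero, Finset.filter_eq_empty_iff]
    rintro u - ⟨h1, h2⟩
    apply hv
    rw [← h2, lbl_B_mul (inv_mem (mem_B_of_lbl h1))]

/-- The count for the unit on the right. -/
lemma cnt_one_right (w : WG P) (v : G) : cnt P w 1 v = if lbl P v = w then Nat.card P.B else 0 := by
  unfold cnt
  split_ifs with hv
  · rw [← card_coset v]
    congr 1
    ext u
    simp only [Finset.mem_filter, Finset.mem_univ, true_and]
    constructor
    · rintro ⟨-, h2⟩
      have := inv_mem (mem_B_of_lbl h2)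
      simpa using this
    · intro hu
      have e : u = v * (v⁻¹ * u) := by group
      constructor
      · rw [e, lbl_mul_B hu, hv]
      · apply lbl_B
        have := inv_mem hu
        simpa using this
  · rw [Finset.card_eq_zero, Finset.filter_eq_empty_iff]
    rintro u - ⟨h1, h2⟩
    apply hv
    have e : v = u * (u⁻¹ * v) := by group
    rw [e, lbl_mul_B (mem_B_of_lbl h2), h1]

/-- The count for the square of a generator: the elements of `v B` are excluded. -/
lemma cnt_sq_s {t : G} (ht : t ∈ P.S) {v : G} (hv : lbl P v = ws P t) :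
    cnt P (ws P t) (ws P t) v + Nat.card P.B = dg P (ws P t) := by
  rw [← card_coset v]
  unfold cnt dg
  rw [← Finset.card_union_of_disjoint]
  · congr 1
    ext u
    simp only [Finset.mem_union, Finset.mem_filter, Finset.mem_univ, true_and]
    constructor
    · rintro (⟨h1, -⟩ | h)
      · exact h1
      · have e : u = v * (v⁻¹ * u) := by group
        rw [e, lbl_mul_B h, hv]
    · intro h1
      have h3 : lbl P u⁻¹ = ws P t := by rw [lbl_inv, h1, ws_inv' ht]
      rcases lbl_mul_of_S ht h3 v with h4 | h4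
      · right
        rw [hv, ws_sq' ht] at h4
        have := inv_mem (mem_B_of_lbl h4)
        simpa using this
      · left
        exact ⟨h1, by rw [h4, hv]⟩
  · rw [Finset.disjoint_filter]
    rintro u - ⟨-, h2⟩ h3
    have h4 : u⁻¹ * v ∈ P.B := by
      have := inv_mem h3
      simpa using this
    rw [lbl_B h4] at h2
    exact ws_ne_one ht h2.symm

lemma cnt_sq_one {t : G} (ht : t ∈ P.S) {v : G} (hv : lbl P v = 1) :
    cnt P (ws P t) (ws P t) v = dg P (ws P t) := by
  unfold cnt dg
  congr 1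
  ext u
  simp only [Finset.mem_filter, Finset.mem_univ, true_and, and_iff_left_iff_imp]
  intro h1
  rw [lbl_mul_B (mem_B_of_lbl hv), lbl_inv, h1, ws_inv' ht]

lemma cnt_sq_zero {t : G} (ht : t ∈ P.S) {v : G} (hv : lbl P v ≠ 1) (hv' : lbl P v ≠ ws P t) :
    cnt P (ws P t) (ws P t) v = 0 := by
  unfold cnt
  rw [Finset.card_eq_zero, Finset.filter_eq_empty_iff]
  rintro u - ⟨h1, h2⟩
  have e : u * (u⁻¹ * v) = v := by group
  rcases lbl_mul_of_S ht h1 (u⁻¹ * v) with h4 | h4
  · rw [e, h2, ws_sq' ht] at h4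
    exact hv h4
  · rw [e, h2] at h4
    exact hv' h4

/-- The product when the lengths add. -/
theorem Tw_up {t : G} (ht : t ∈ P.S) {w : WG P} (h : wlen P (ws P t * w) = wlen P w + 1) :
    Tw P (ws P t) * Tw P w = Tw P (ws P t * w) := by
  ext x y
  rw [Tw_mul_apply, cnt_up ht h]
  unfold Tw cB
  have := card_B_ne (P := P)
  split_ifs <;> simp

theorem Tw_one_mul (w : WG P) : Tw P 1 * Tw P w = Tw P w := by
  ext x y
  rw [Tw_mul_apply, cnt_one_left]
  unfold Tw cB
  have := card_B_ne (P := P)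
  split_ifs <;> simp

theorem Tw_mul_one (w : WG P) : Tw P w * Tw P 1 = Tw P w := by
  ext x y
  rw [Tw_mul_apply, cnt_one_right]
  unfold Tw cB
  have := card_B_ne (P := P)
  split_ifs <;> simp

/-- The parameter attached to a generator. -/
noncomputable def qS (P : BNPair G) (w : WG P) : ℝ := dg P w * cB P

theorem Tw_sq {t : G} (ht : t ∈ P.S) :
    Tw P (ws P t) * Tw P (ws P t) = qS P (ws P t) • Tw P 1 + (qS P (ws P t) - 1) • Tw P (ws P t) := by
  ext x y
  rw [Tw_mul_apply]
  simp only [Matrix.add_apply, Matrix.smul_apply, smul_eq_mul]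
  unfold Tw
  have hB := card_B_ne (P := P)
  have hc : cB P * (Nat.card P.B : ℝ) = 1 := by
    unfold cB
    field_simp
  set v := x⁻¹ * y with hv
  by_cases h1 : lbl P v = 1
  · rw [cnt_sq_one ht h1, if_pos h1, if_neg (by rw [h1]; exact (ws_ne_one ht).symm)]
    unfold qS
    ring
  · by_cases h2 : lbl P v = ws P t
    · have h3 := cnt_sq_s ht h2
      have h4 : (dg P (ws P t) : ℝ) = cnt P (ws P t) (ws P t) v + Nat.card P.B := by
        rw [← h3]
        push_cast
        ring
      rw [if_neg h1, if_pos h2]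
      unfold qS
      rw [h4]
      linear_combination (- cB P) * hc
    · rw [cnt_sq_zero ht h1 h2, if_neg h1, if_neg h2]
      simp

theorem trace_Tw_one : (Tw P 1).trace = Fintype.card G * cB P := by
  have h : ∀ x, Tw P 1 x x = cB P := by
    intro x
    simp [Tw, lbl_one]
  show ∑ x, Tw P 1 x x = _
  simp [h]

theorem trace_Tw {w : WG P} (hw : w ≠ 1) : (Tw P w).trace = 0 := by
  have h : ∀ x, Tw P w x x = 0 := by
    intro x
    simp [Tw, lbl_one, hw.symm]
  show ∑ x, Tw P w x x = _
  simp [h]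

/-- The row sums. -/
theorem Tw_mulVec (w : WG P) : (Tw P w).mulVec (fun _ => 1) = fun _ => qS P w := by
  ext x
  unfold Matrix.mulVec dotProduct Tw qS dg
  simp only [mul_one]
  rw [← Equiv.sum_comp (Equiv.mulLeft x)]
  simp only [Equiv.coe_mulLeft, inv_mul_cancel_left]
  rw [Finset.card_filter]
  push_cast
  rw [Finset.sum_mul]
  apply Finset.sum_congr rfl
  intro u _
  by_cases h1 : lbl P u = w <;> simp [h1]

lemma dg_pos (w : WG P) : 0 < dg P w := by
  obtain ⟨n, hn, rfl⟩ := exists_rep w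
  exact Finset.card_pos.2 ⟨n, by simp [lbl_ws hn]⟩

lemma qS_pos (w : WG P) : 0 < qS P w := by
  unfold qS cB
  have := dg_pos w
  have := card_B_pos (P := P)
  positivity

lemma qS_gt_one {t : G} (ht : t ∈ P.S) : 1 < qS P (ws P t) := by
  have hlt : Nat.card P.B < dg P (ws P t) := by
    rw [← card_coset t]
    apply Finset.card_lt_card
    refine ⟨?_, ?_⟩
    · intro u hu
      simp only [Finset.mem_filter, Finset.mem_univ, true_and] at hu ⊢
      have e : u = t * (t⁻¹ * u) := by group
      rw [e, lbl_mul_B hu, lbl_self ht]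
    · intro hsub
      obtain ⟨b₀, hb₀, hn⟩ := exists_conj_not_mem ht
      have h1 : b₀ * t ∈ (Finset.univ.filter fun u : G => lbl P u = ws P t) := by
        simp [lbl_B_mul hb₀, lbl_self ht]
      have h2 := hsub h1
      simp only [Finset.mem_filter, Finset.mem_univ, true_and] at h2
      apply hn
      have e : t * b₀ * t = (t * t) * (t⁻¹ * (b₀ * t)) := by group
      rw [e]
      exact mul_mem (P.sq_mem t ht) h2
  unfold qS cB
  have hB := card_B_pos (P := P)
  have h3 : (Nat.card P.B : ℝ) < dg P (ws P t) := by exact_mod_cast hlt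
  have h4 : (0 : ℝ) < Nat.card P.B := by exact_mod_cast hB
  rw [← div_eq_mul_inv, one_lt_div h4]
  exact h3

lemma qS_mem (w : WG P) : qS P w ∈ KK := by
  unfold qS cB
  exact mul_mem (nat_mem _) (inv_mem (nat_mem _))

end Cfsg.Agent.Lib.FH
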